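import Mathlib
import Cfsg.Agent.Lib.Oct.Co

/-! Rigidity of the root group structure on `Co K` (FS8 end game). -/

set_option autoImplicit false
set_option linter.unusedSectionVars false
set_option linter.unusedSimpArgs false

namespace FS8E

open H78.Oct H78.Oct.Co

variable {K : Type*} [Field K] [Tits K] [Finite K] {β : Co K → Co K}

/-- `β` is multiplicative on `S`. -/
def Ml (S : Subgroup (Co K)) (β : Co K → Co K) : Prop := ∀ a ∈ S, ∀ b ∈ S, β (a * b) = β a * β b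

/-- `β` preserves the inner root groups. -/
structure Pr (β : Co K → Co K) : Prop where
  p2 : ∀ s u, ∃ s' u', β (y2 s u) = y2 s' u'
  p3 : ∀ s, ∃ s', β (x3 s) = x3 s'
  p4 : ∀ s u, ∃ s' u', β (y4 s u) = y4 s' u'
  p5 : ∀ s, ∃ s', β (x5 s) = x5 s'
  p6 : ∀ s u, ∃ s' u', β (y6 s u) = y6 s' u'
  p7 : ∀ s, ∃ s', β (x7 s) = x7 s'

/-- The middle part of a normal form. -/
def mid (a : Co K) : Co K := x3 a.a3 * y4 a.a4 a.b4 * x5 a.a5 * y6 a.a6 a.b6 * x7 a.a7

theorem mk_mid (a b c d e f g : K) : x3 a * y4 b c * x5 d * y6 e f * x7 g =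
    ⟨0, 0, 0, a, b, c, d, e, f, g, 0, 0⟩ := by
  rw [show x3 a * y4 b c = ⟨0, 0, 0, a, b, c, 0, 0, 0, 0, 0, 0⟩ by ext <;> simp,
    show _ * x5 d = ⟨0, 0, 0, a, b, c, d, 0, 0, 0, 0, 0⟩ by ext <;> simp,
    show _ * y6 e f = ⟨0, 0, 0, a, b, c, d, e, f, 0, 0, 0⟩ by ext <;> simp]
  ext <;> simp

theorem prod_R {a : Co K} (ha : a ∈ R) : a = y2 a.a2 a.b2 * mid a * y8 a.a8 a.b8 := by
  rw [mem_R] at ha
  rw [mid, mk_mid]
  ext <;> simp [ha]

theorem prod_Q {a : Co K} (ha : a ∈ Q) : a = x1 a.a1 * y2 a.a2 a.b2 * mid a := by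
  rw [mem_Q] at ha
  rw [mid, mk_mid]
  ext <;> simp [ha]

theorem mid_R (a : Co K) : mid a ∈ R := by rw [mid, mk_mid]; simp
theorem mid_Q (a : Co K) : mid a ∈ Q := by rw [mid, mk_mid]; simp

theorem Ml.mid {S : Subgroup (Co K)} (h : Ml S β) (hS : R ⊓ Q ≤ S) (a : Co K) : β (mid a) =
    β (x3 a.a3) * β (y4 a.a4 a.b4) * β (x5 a.a5) * β (y6 a.a6 a.b6) * β (x7 a.a7) := by
  have k : ∀ {x : Co K}, x.a1 = 0 → x.a8 = 0 → x.b8 = 0 → x ∈ S := fun a b c => hS ⟨a, b, c⟩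
  rw [FS8E.mid, h _ (k (by simp) (by simp) (by simp)) _ (k rfl rfl rfl),
    h _ (k (by simp) (by simp) (by simp)) _ (k rfl rfl rfl),
    h _ (k (by simp) (by simp) (by simp)) _ (k rfl rfl rfl), h _ (k rfl rfl rfl) _ (k rfl rfl rfl)]

theorem fix_mid {S : Subgroup (Co K)} (h : Ml S β) (hS : R ⊓ Q ≤ S) (p : Pr β) {a : Co K} (e : β (mid a) = mid a) :
    β (x3 a.a3) = x3 a.a3 ∧ β (y4 a.a4 a.b4) = y4 a.a4 a.b4 ∧ β (x5 a.a5) = x5 a.a5 ∧
      β (y6 a.a6 a.b6) = y6 a.a6 a.b6 ∧ β (x7 a.a7) = x7 a.a7 := by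
  rw [h.mid hS] at e
  obtain ⟨_, h3⟩ := p.p3 a.a3
  obtain ⟨_, _, h4⟩ := p.p4 a.a4 a.b4
  obtain ⟨_, h5⟩ := p.p5 a.a5
  obtain ⟨_, _, h6⟩ := p.p6 a.a6 a.b6
  obtain ⟨_, h7⟩ := p.p7 a.a7
  rw [h3, h4, h5, h6, h7, mid, mk_mid, mk_mid, Co.mk.injEq] at e
  obtain ⟨-, -, -, rfl, rfl, rfl, rfl, rfl, rfl, rfl, -⟩ := e
  exact ⟨h3, h4, h5, h6, h7⟩

theorem rg1 (h : Ml R β) (p : Pr β) (h2 : ∀ s u, β (y2 s u) = y2 s u) (h8 : ∀ s u, β (y8 s u) = y8 s u) :
    ∀ a ∈ R, β a = a := by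
  have k : ∀ t v s u, β (mid (y8 t v * y2 s u)) = mid (y8 t v * y2 s u) := fun t v s u => by
    have e := prod_R (a := y8 t v * y2 s u) (by simp)
    have e' := congrArg β e
    rw [h _ (by simp) _ (by simp), h _ (mul_mem (by simp) (mid_R _)) _ (by simp), h _ (by simp) _ (mid_R _),
      h8, h2, h2, h8] at e'
    exact mul_left_cancel (mul_right_cancel (e'.symm.trans e))
  have k' := fun t v s u => fix_mid h inf_le_left p (k t v s u)
  have h3 : ∀ s, β (x3 s) = x3 s := fun s => by simpa using (k' 1 0 0 s).1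
  have h5 : ∀ s, β (x5 s) = x5 s := fun s => by simpa using (k' 0 1 0 s).2.2.1
  have h7 : ∀ s, β (x7 s) = x7 s := fun s => by simpa using (k' 0 s 1 0).2.2.2.2
  have a4 : ∀ s, ∃ u, β (y4 s u) = y4 s u := fun s => by
    obtain ⟨s, rfl⟩ := (σ : K ≃+* K).surjective s
    exact ⟨_, by simpa using (k' 1 0 s 0).2.1⟩
  have a6 : ∀ s, ∃ u, β (y6 s u) = y6 s u := fun s => ⟨_, by simpa using (k' 1 0 s 0).2.2.2.1⟩
  have z4 : ∀ u, β (y4 0 u) = y4 0 u := fun u => by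
    obtain ⟨s, rfl⟩ := N_surj u
    obtain ⟨v, e⟩ := a4 s
    rw [show y4 0 (s * σ s) = y4 s v * y4 s v by ext <;> simp <;> grind, h _ (by simp) _ (by simp), e]
  have z6 : ∀ u, β (y6 0 u) = y6 0 u := fun u => by
    obtain ⟨s, rfl⟩ := N_surj u
    obtain ⟨v, e⟩ := a6 s
    rw [show y6 0 (s * σ s) = y6 s v * y6 s v by ext <;> simp <;> grind, h _ (by simp) _ (by simp), e]
  have h4 : ∀ s u, β (y4 s u) = y4 s u := fun s u => by
    obtain ⟨v, e⟩ := a4 s
    rw [show y4 s u = y4 s v * y4 0 (u + v) by ext <;> simp <;> grind, h _ (by simp) _ (by simp), e, z4]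
  have h6 : ∀ s u, β (y6 s u) = y6 s u := fun s u => by
    obtain ⟨v, e⟩ := a6 s
    rw [show y6 s u = y6 s v * y6 0 (u + v) by ext <;> simp <;> grind, h _ (by simp) _ (by simp), e, z6]
  intro a ha
  conv_lhs => rw [prod_R ha]
  rw [h _ (mul_mem (by simp) (mid_R _)) _ (by simp), h _ (by simp) _ (mid_R _), h.mid inf_le_left,
    h2, h3, h4, h5, h6, h7, h8]
  exact (prod_R ha).symm

set_option maxHeartbeats 1000000 in
theorem rg2 (h : Ml Q β) (p : Pr β) (h1 : ∀ s, β (x1 s) = x1 s) (h4 : ∀ s u, β (y4 s u) = y4 s u) :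
    ∀ a ∈ Q, β a = a := by
  have z2 : ∀ u, β (y2 0 u) = y2 0 u := fun u => by
    have e : y4 u 0 * x1 1 = x1 1 * (y2 0 u * y4 u 0) := by ext <;> simp
    have e' := congrArg β e
    rw [h _ (by simp) _ (by simp), h _ (by simp) _ (by simp), h _ (by simp) _ (by simp), h4, h1] at e'
    exact mul_right_cancel (mul_left_cancel (e'.symm.trans e))
  have a2 : ∀ s u, ∃ u', β (y2 s u) = y2 s u' := fun s u => by
    obtain ⟨s', u', e⟩ := p.p2 s u
    have e' := z2 (s * σ s)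
    rw [show y2 0 (s * σ s) = y2 s u * y2 s u by ext <;> simp <;> grind, h _ (by simp) _ (by simp), e] at e'
    have : s' * σ s' = s * σ s := by
      have := congrArg Co.b2 e'
      simp at this
      grind
    exact ⟨u', N_inj this ▸ e⟩
  have h3 : ∀ s, β (x3 s) = x3 s := fun s => by
    obtain ⟨u', e2⟩ := a2 s 0
    have e : ∀ u, y4 1 0 * y2 s u = y2 s u * (x3 s * y4 1 0) := fun u => by ext <;> simp
    have e' := congrArg β (e 0)
    rw [h _ (by simp) _ (by simp), h _ (by simp) _ (by simp), h _ (by simp) _ (by simp), h4, e2] at e'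
    exact mul_right_cancel (mul_left_cancel (e'.symm.trans (e u')))
  have h75 : ∀ s, β (x7 s) = x7 s ∧ β (x5 (σ s)) = x5 (σ s) := fun s => by
    obtain ⟨s', e7⟩ := p.p7 s
    obtain ⟨t, e5⟩ := p.p5 (σ s)
    have e : x7 s * x1 1 = x1 1 * (x3 s * (x5 (σ s) * x7 s)) := by ext <;> simp
    have e' := congrArg β e
    rw [h _ (by simp) _ (by simp), h _ (by simp) _ (by simp), h _ (by simp) _ (by simp),
      h _ (by simp) _ (by simp), h1, h3, e7, e5] at e'
    obtain rfl : s' = s := by simpa using congrArg Co.a3 e'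
    obtain rfl : σ s' = t := by simpa using congrArg Co.a5 e'
    exact ⟨e7, e5⟩
  have h7 := fun s => (h75 s).1
  have h5 : ∀ s, β (x5 s) = x5 s := fun s => by simpa using (h75 ((σ : K ≃+* K).symm s)).2
  have h6 : ∀ s u, β (y6 s u) = y6 s u := fun s u => by
    obtain ⟨s', u', e6⟩ := p.p6 s u
    have e : y6 s u * x1 1 = x1 1 * (y2 0 s * (x3 (σ s) * (y4 0 u * y6 s u))) := by ext <;> simp
    have e' := congrArg β e
    rw [h _ (by simp) _ (by simp), h _ (by simp) _ (by simp), h _ (by simp) _ (by simp),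
      h _ (by simp) _ (by simp), h _ (by simp) _ (by simp), h1, h3, z2, h4, e6] at e'
    obtain rfl : s' = s := by simpa using congrArg Co.b2 e'
    obtain rfl : u' = u := by simpa using congrArg Co.b4 e'
    exact e6
  have h2 : ∀ s u, β (y2 s u) = y2 s u := fun s u => by
    obtain ⟨u', e2⟩ := a2 s u
    have e : x7 1 * y2 s u = y2 s u * (y4 0 (s * σ s + u) * (x5 (σ s) * (y6 0 s * x7 1))) := by ext <;> simp
    have e' := congrArg β e
    rw [h _ (by simp) _ (by simp), h _ (by simp) _ (by simp), h _ (by simp) _ (by simp),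
      h _ (by simp) _ (by simp), h _ (by simp) _ (by simp), h7, h4, h5, h6, e2] at e'
    obtain rfl : u' = u := by simpa using congrArg Co.b4 e'
    exact e2
  intro a ha
  conv_lhs => rw [prod_Q ha]
  rw [h _ (by simp) _ (mid_Q _), h _ (by simp) _ (by simp), h.mid inf_le_right, h1, h2, h3, h4, h5, h6, h7]
  exact (prod_Q ha).symm

theorem prod_1 (a : Co K) : ∃ r ∈ R, a = x1 a.a1 * r :=
  ⟨(x1 a.a1)⁻¹ * a, by simp [CharTwo.add_self_eq_zero], by simp⟩

theorem prod_8 (a : Co K) : ∃ r ∈ Q, a = r * y8 a.a8 a.b8 :=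
  ⟨a * (y8 a.a8 a.b8)⁻¹, by simp; grind, by simp⟩

theorem rg3 (h : Ml ⊤ β) (p : ∀ s, ∃ s', β (x1 s) = x1 s') (hR : ∀ a ∈ R, β a = a) (a : Co K) : β a = a := by
  have h1 : ∀ s, β (x1 s) = x1 s := fun s => by
    obtain ⟨s', e1⟩ := p s
    obtain ⟨r, hr, e⟩ := prod_1 (y8 1 0 * x1 s)
    have e' := congrArg β e
    simp only [mul_a1, y8_a1, x1_a1, zero_add] at e e'
    rw [h _ trivial _ trivial, h _ trivial _ trivial, hR r hr, hR (y8 1 0) (by simp), e1] at e'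
    have a := congrArg Co.a2 e
    have b := congrArg Co.a2 e'
    simp at a b
    exact (b.trans a.symm) ▸ e1
  obtain ⟨r, hr, e⟩ := prod_1 a
  conv_lhs => rw [e]
  rw [h _ trivial _ trivial, h1, hR r hr, ← e]

theorem rg4 (h : Ml ⊤ β) (p : ∀ s u, ∃ s' u', β (y8 s u) = y8 s' u') (hQ : ∀ a ∈ Q, β a = a) (a : Co K) :
    β a = a := by
  have h1 : ∀ s u, β (y8 s u) = y8 s u := fun s u => by
    obtain ⟨s', u', e1⟩ := p s u
    obtain ⟨r, hr, e⟩ := prod_8 (y8 s u * x1 1)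
    have e' := congrArg β e
    simp only [mul_a8, mul_b8, y8_a8, y8_b8, x1_a8, x1_b8, add_zero, map_zero, mul_zero, zero_add] at e e'
    rw [h _ trivial _ trivial, h _ trivial _ trivial, hQ r hr, hQ (x1 1) (by simp), e1] at e'
    have a := congrArg Co.a2 e
    have b := congrArg Co.a2 e'
    have c := congrArg Co.a4 e
    have d := congrArg Co.a4 e'
    simp [hr.1, hr.2] at a b c d
    rw [e1, b.trans a.symm, d.trans c.symm]
  obtain ⟨r, hr, e⟩ := prod_8 a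
  conv_lhs => rw [e]
  rw [h _ trivial _ trivial, h1, hQ r hr, ← e]

theorem eqns_rg : True := by
  have := @Ml.eq_1.{0}
  have := @mid.eq_1.{0}
  trivial

end FS8E
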