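import Mathlib
import Cfsg.Agent.Lib.FS8E.Rg

/-! A coordinatised octagon window: the action of the reflections (FS8 end game). -/

set_option autoImplicit false
set_option linter.unusedSectionVars false
set_option linter.unusedSimpArgs false

namespace FS8E

open H78.Oct H78.Oct.Co
open scoped commutatorElement

/-- `g` permutes the groups `U j` along `f`. -/
def Ac {G : Type*} [Group G] (U : ℤ → Subgroup G) (g : G) (f : ℤ → ℤ) : Prop :=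
  ∀ j y, y ∈ U j ↔ g * y * g⁻¹ ∈ U (f j)

/-- Root groups of a Moufang octagon together with coordinates on the positive ones. -/
structure Eg (K G : Type*) [Field K] [Tits K] [Group G] where
  /-- the root groups -/
  U : ℤ → Subgroup G
  per : ∀ i, U (i + 16) = U i
  /-- the coordinates -/
  nf : Co K →* G
  inj : Function.Injective nf
  u1 : ∀ g, g ∈ U 1 ↔ ∃ s, g = nf (x1 s)
  u2 : ∀ g, g ∈ U 2 ↔ ∃ s u, g = nf (y2 s u)
  u3 : ∀ g, g ∈ U 3 ↔ ∃ s, g = nf (x3 s)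
  u4 : ∀ g, g ∈ U 4 ↔ ∃ s u, g = nf (y4 s u)
  u5 : ∀ g, g ∈ U 5 ↔ ∃ s, g = nf (x5 s)
  u6 : ∀ g, g ∈ U 6 ↔ ∃ s u, g = nf (y6 s u)
  u7 : ∀ g, g ∈ U 7 ↔ ∃ s, g = nf (x7 s)
  u8 : ∀ g, g ∈ U 8 ↔ ∃ s u, g = nf (y8 s u)
  c9 : ∀ u ∈ U 9, ∀ j, 2 ≤ j → j ≤ 8 → ∀ y ∈ U j, ∀ H : Subgroup G,
    (∀ k, j < k → k < 9 → U k ≤ H) → ⁅u, y⁆ ∈ H
  c0 : ∀ u ∈ U 0, ∀ j, 1 ≤ j → j ≤ 7 → ∀ y ∈ U j, ∀ H : Subgroup G,
    (∀ k, 0 < k → k < j → U k ≤ H) → ⁅u, y⁆ ∈ H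
  mu1 : ∀ x ∈ U 1, x ≠ 1 → ∃ u ∈ U 9, ∃ u' ∈ U 9, Ac U (u * x * u') (10 - ·)
  mu8 : ∀ x ∈ U 8, x ≠ 1 → ∃ u ∈ U 0, ∃ u' ∈ U 0, Ac U (u * x * u') (8 - ·)
  opp : ∀ a, (∀ H : Subgroup G, (∀ k, 9 ≤ k → k ≤ 16 → U k ≤ H) → nf a ∈ H) → a = 1
  gen : ∀ H : Subgroup G, (∀ k, U k ≤ H) → H = ⊤
  cen : ∀ g : G, (∀ x, x * g = g * x) → g = 1

section Ac

variable {G : Type*} [Group G] {U : ℤ → Subgroup G} {g g' : G} {f f' : ℤ → ℤ}

theorem Ac.mul (h : Ac U g f) (h' : Ac U g' f') : Ac U (g * g') fun j => f (f' j) := fun j y => by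
  rw [h' j y, h]; simp [mul_assoc]

theorem Ac.congr (h : Ac U g f) (e : ∀ j, U (f j) = U (f' j)) : Ac U g f' := fun j y => e j ▸ h j y

theorem Ac.congr' (h : Ac U g f) (e : ∀ j, f j = f' j) : Ac U g f' := h.congr fun j => by rw [e]

theorem Ac.inv (h : Ac U g f) (e : ∀ j, f (f' j) = j) : Ac U g⁻¹ f' := fun j y => by
  rw [h (f' j), e]; simp [mul_assoc]

theorem Ac.mem (h : Ac U g f) {j k : ℤ} {y : G} (hy : y ∈ U j) (e : f j = k) : g * y * g⁻¹ ∈ U k :=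
  e ▸ (h j y).1 hy

theorem ac_one : Ac U 1 id := fun j y => by simp

end Ac

variable {K G : Type*} [Field K] [Tits K] [Finite K] [Group G]

/-- `U₃ ⋯ U₈`. -/
def R3 : Subgroup (Co K) where
  carrier := {x | x.a1 = 0 ∧ x.a2 = 0 ∧ x.b2 = 0}
  mul_mem' := fun ha hb => by simp_all
  one_mem' := by simp
  inv_mem' := fun ha => by simp_all

@[simp] theorem mem_R3 {x : Co K} : x ∈ (R3 : Subgroup (Co K)) ↔ x.a1 = 0 ∧ x.a2 = 0 ∧ x.b2 = 0 := Iff.rfl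

/-- `U₁ ⋯ U₆`. -/
def Q6 : Subgroup (Co K) where
  carrier := {x | x.a7 = 0 ∧ x.a8 = 0 ∧ x.b8 = 0}
  mul_mem' := fun ha hb => by simp_all
  one_mem' := by simp
  inv_mem' := fun ha => by simp_all

@[simp] theorem mem_Q6 {x : Co K} : x ∈ (Q6 : Subgroup (Co K)) ↔ x.a7 = 0 ∧ x.a8 = 0 ∧ x.b8 = 0 := Iff.rfl

theorem w2_tor' (c k : Kˣ) (x : Co K) : w2 (tor c k x) = tor c (σu c * k⁻¹) (w2 x) := by
  have := c.ne_zero
  have := k.ne_zero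
  have := σ_ne c.ne_zero
  have := σ_ne k.ne_zero
  ext <;> simp <;> field_simp <;> simp

theorem tor_R (c k : Kˣ) {x : Co K} (h : x ∈ R) : tor c k x ∈ R := by simp_all
theorem tor_Q (c k : Kˣ) {x : Co K} (h : x ∈ Q) : tor c k x ∈ Q := by simp_all

namespace Eg

variable (D : Eg K G)

theorem m1 (s : K) : D.nf (x1 s) ∈ D.U 1 := (D.u1 _).2 ⟨s, rfl⟩
theorem m2 (s u : K) : D.nf (y2 s u) ∈ D.U 2 := (D.u2 _).2 ⟨s, u, rfl⟩
theorem m3 (s : K) : D.nf (x3 s) ∈ D.U 3 := (D.u3 _).2 ⟨s, rfl⟩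
theorem m4 (s u : K) : D.nf (y4 s u) ∈ D.U 4 := (D.u4 _).2 ⟨s, u, rfl⟩
theorem m5 (s : K) : D.nf (x5 s) ∈ D.U 5 := (D.u5 _).2 ⟨s, rfl⟩
theorem m6 (s u : K) : D.nf (y6 s u) ∈ D.U 6 := (D.u6 _).2 ⟨s, u, rfl⟩
theorem m7 (s : K) : D.nf (x7 s) ∈ D.U 7 := (D.u7 _).2 ⟨s, rfl⟩
theorem m8 (s u : K) : D.nf (y8 s u) ∈ D.U 8 := (D.u8 _).2 ⟨s, u, rfl⟩

theorem le_map (S : Subgroup (Co K)) {j : ℤ} (h1 : 1 ≤ j) (h8 : j ≤ 8) (a1 : j = 1 → ∀ s, x1 s ∈ S)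
    (a2 : j = 2 → ∀ s u, y2 s u ∈ S) (a7 : j = 7 → ∀ s, x7 s ∈ S) (a8 : j = 8 → ∀ s u, y8 s u ∈ S)
    (h : R3 ⊓ Q6 ≤ S) : D.U j ≤ S.map D.nf := fun g hg => by
  interval_cases j
  · obtain ⟨s, rfl⟩ := (D.u1 g).1 hg; exact ⟨_, a1 rfl s, rfl⟩
  · obtain ⟨s, u, rfl⟩ := (D.u2 g).1 hg; exact ⟨_, a2 rfl s u, rfl⟩
  · obtain ⟨s, rfl⟩ := (D.u3 g).1 hg; exact ⟨_, h (by simp), rfl⟩
  · obtain ⟨s, u, rfl⟩ := (D.u4 g).1 hg; exact ⟨_, h (by simp), rfl⟩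
  · obtain ⟨s, rfl⟩ := (D.u5 g).1 hg; exact ⟨_, h (by simp), rfl⟩
  · obtain ⟨s, u, rfl⟩ := (D.u6 g).1 hg; exact ⟨_, h (by simp), rfl⟩
  · obtain ⟨s, rfl⟩ := (D.u7 g).1 hg; exact ⟨_, a7 rfl s, rfl⟩
  · obtain ⟨s, u, rfl⟩ := (D.u8 g).1 hg; exact ⟨_, a8 rfl s u, rfl⟩

theorem leR {j : ℤ} (h1 : 2 ≤ j) (h8 : j ≤ 8) : D.U j ≤ R.map D.nf :=
  D.le_map R (by omega) h8 (by omega) (by simp) (by simp) (by simp) fun _ h => h.1.1
theorem leQ {j : ℤ} (h1 : 1 ≤ j) (h8 : j ≤ 7) : D.U j ≤ Q.map D.nf :=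
  D.le_map Q h1 (by omega) (by simp) (by simp) (by simp) (by omega) fun _ h => h.2.2
theorem leR3 {j : ℤ} (h1 : 3 ≤ j) (h8 : j ≤ 8) : D.U j ≤ R3.map D.nf :=
  D.le_map R3 (by omega) h8 (by omega) (by omega) (by simp) (by simp) inf_le_left
theorem leQ6 {j : ℤ} (h1 : 1 ≤ j) (h8 : j ≤ 6) : D.U j ≤ Q6.map D.nf :=
  D.le_map Q6 h1 (by omega) (by simp) (by simp) (by omega) (by omega) inf_le_right
theorem leT {j : ℤ} (h1 : 1 ≤ j) (h8 : j ≤ 8) : D.U j ≤ (⊤ : Subgroup (Co K)).map D.nf :=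
  D.le_map ⊤ h1 h8 (by simp) (by simp) (by simp) (by simp) le_top

theorem ind_mid {H : Subgroup G} (h : ∀ j, 3 ≤ j → j ≤ 7 → D.U j ≤ H) (a : Co K) : D.nf (mid a) ∈ H := by
  simp only [mid, map_mul]
  exact mul_mem (mul_mem (mul_mem (mul_mem (h 3 (by omega) (by omega) (D.m3 _)) (h 4 (by omega) (by omega) (D.m4 _ _)))
    (h 5 (by omega) (by omega) (D.m5 _))) (h 6 (by omega) (by omega) (D.m6 _ _))) (h 7 (by omega) (by omega) (D.m7 _))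

theorem indR {H : Subgroup G} (h : ∀ j, 2 ≤ j → j ≤ 8 → D.U j ≤ H) {a : Co K} (ha : a ∈ R) : D.nf a ∈ H := by
  rw [prod_R ha, map_mul, map_mul]
  exact mul_mem (mul_mem (h 2 (by omega) (by omega) (D.m2 _ _)) (D.ind_mid (fun j _ _ => h j (by omega) (by omega)) a))
    (h 8 (by omega) (by omega) (D.m8 _ _))

theorem indQ {H : Subgroup G} (h : ∀ j, 1 ≤ j → j ≤ 7 → D.U j ≤ H) {a : Co K} (ha : a ∈ Q) : D.nf a ∈ H := by
  rw [prod_Q ha, map_mul, map_mul]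
  exact mul_mem (mul_mem (h 1 (by omega) (by omega) (D.m1 _)) (h 2 (by omega) (by omega) (D.m2 _ _)))
    (D.ind_mid (fun j _ _ => h j (by omega) (by omega)) a)

theorem indT {H : Subgroup G} (h : ∀ j, 1 ≤ j → j ≤ 8 → D.U j ≤ H) (a : Co K) : D.nf a ∈ H := by
  obtain ⟨r, hr, e⟩ := prod_1 a
  rw [e, map_mul]
  exact mul_mem (h 1 (by omega) (by omega) (D.m1 _)) (D.indR (fun j _ _ => h j (by omega) (by omega)) hr)

/-- The elements whose conjugate under `g` lies in `H`. -/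
abbrev pre (g : G) (H : Subgroup G) : Subgroup G := H.comap (MulAut.conj g).toMonoidHom

/-- Conjugation in coordinates. -/
noncomputable def cj (g : G) (a : Co K) : Co K := Function.invFun D.nf (g * D.nf a * g⁻¹)

variable {D}

theorem cj_eq {g : G} {a b : Co K} (h : g * D.nf a * g⁻¹ = D.nf b) : D.cj g a = b := by
  rw [cj, h, Function.leftInverse_invFun D.inj]

theorem cj_spec {g : G} {a : Co K} {S : Subgroup (Co K)} (h : D.nf a ∈ pre g (S.map D.nf)) :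
    D.cj g a ∈ S ∧ g * D.nf a * g⁻¹ = D.nf (D.cj g a) := by
  obtain ⟨b, hb, e⟩ := h
  have e' : g * D.nf a * g⁻¹ = D.nf b := e.symm
  rw [cj_eq e']; exact ⟨hb, e'⟩

theorem cj_ml {g : G} {S S' : Subgroup (Co K)} (h : ∀ a ∈ S, D.nf a ∈ pre g (S'.map D.nf)) : Ml S (D.cj g) :=
  fun a ha b hb => cj_eq (by rw [map_mul, map_mul, ← (cj_spec (h a ha)).2, ← (cj_spec (h b hb)).2]; group)

theorem n9 {u : G} (hu : u ∈ D.U 9) {a : Co K} (ha : a ∈ R) :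
    ∃ b ∈ R, u * D.nf a * u⁻¹ = D.nf b ∧ b.a2 = a.a2 ∧ b.b2 = a.b2 := by
  have k : ∀ j, 2 ≤ j → j ≤ 8 → ∀ y ∈ D.U j, ∃ c ∈ R3, u * y * u⁻¹ = D.nf c * y := fun j h1 h2 y hy => by
    obtain ⟨c, hc, e⟩ := D.c9 u hu j h1 h2 y hy _ fun k _ _ => D.leR3 (by omega) (by omega)
    exact ⟨c, hc, by rw [e, commutatorElement_def]; group⟩
  have k3 : D.nf (mid a * y8 a.a8 a.b8) ∈ pre u (R3.map D.nf) := by
    have k' : ∀ j, 3 ≤ j → j ≤ 8 → D.U j ≤ pre u (R3.map D.nf) := fun j h1 h2 y hy => by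
      obtain ⟨c, hc, e⟩ := k j (by omega) h2 y hy
      exact (show u * y * u⁻¹ ∈ R3.map D.nf from e ▸ mul_mem (Subgroup.mem_map_of_mem _ hc) (D.leR3 h1 h2 hy))
    rw [map_mul]
    exact mul_mem (D.ind_mid (fun j _ _ => k' j (by omega) (by omega)) a) (k' 8 (by omega) (by omega) (D.m8 _ _))
  obtain ⟨d, hd, e⟩ := k3
  obtain ⟨c, hc, e'⟩ := k 2 (by omega) (by omega) _ (D.m2 a.a2 a.b2)
  refine ⟨c * y2 a.a2 a.b2 * d, by simp_all, ?_, ?_, ?_⟩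
  · conv_lhs => rw [prod_R ha, mul_assoc (y2 _ _), map_mul]
    rw [map_mul D.nf _ d, map_mul D.nf c, ← e', e]
    simp [mul_assoc]
  all_goals simp_all

theorem n0 {u : G} (hu : u ∈ D.U 0) {a : Co K} (ha : a ∈ Q) :
    ∃ b ∈ Q, u * D.nf a * u⁻¹ = D.nf b ∧ b.a7 = a.a7 := by
  have k : ∀ j, 1 ≤ j → j ≤ 7 → ∀ y ∈ D.U j, ∃ c ∈ Q6, u * y * u⁻¹ = D.nf c * y := fun j h1 h2 y hy => by
    obtain ⟨c, hc, e⟩ := D.c0 u hu j h1 h2 y hy _ fun k _ _ => D.leQ6 (by omega) (by omega)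
    exact ⟨c, hc, by rw [e, commutatorElement_def]; group⟩
  let H : Subgroup G :=
    { carrier := {y | ∃ a ∈ Q, ∃ b ∈ Q, y = D.nf a ∧ u * y * u⁻¹ = D.nf b ∧ b.a7 = a.a7}
      one_mem' := ⟨1, one_mem _, 1, one_mem _, by simp, by simp, rfl⟩
      mul_mem' := by
        rintro _ _ ⟨a, ha, b, hb, rfl, e, e'⟩ ⟨c, hc, d, hd, rfl, f, f'⟩
        exact ⟨_, mul_mem ha hc, _, mul_mem hb hd, by simp, by rw [map_mul, ← e, ← f]; group, by simp_all⟩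
      inv_mem' := by
        rintro _ ⟨a, ha, b, hb, rfl, e, e'⟩
        exact ⟨_, inv_mem ha, _, inv_mem hb, by simp, by rw [map_inv, ← e]; group, by simp_all⟩ }
  obtain ⟨a', -, b, hb, e, e1, e2⟩ := D.indQ (H := H) (fun j h1 h2 y hy => by
    obtain ⟨c, hc, e⟩ := k j h1 h2 y hy
    obtain ⟨a, ha, rfl⟩ := D.leQ h1 h2 hy
    exact ⟨a, ha, c * a, mul_mem hc.2 ha, rfl, by rw [e, map_mul], by simp_all⟩) ha
  exact ⟨b, hb, e1, D.inj e ▸ e2⟩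

theorem sh1 {u u' : G} (hu : u ∈ D.U 9) (hu' : u' ∈ D.U 9) (h : Ac D.U (u * D.nf (x1 1) * u') (10 - ·)) (t v : K) :
    (u * D.nf (x1 1) * u') * D.nf (y8 t v) * (u * D.nf (x1 1) * u')⁻¹ = D.nf (y2 t v) := by
  obtain ⟨s, w, e⟩ := (D.u2 _).1 (h.mem (D.m8 t v) (by norm_num))
  have c := commutatorElement_eq_one_iff_mul_comm.1
    (Subgroup.mem_bot.1 (D.c9 u' hu' 8 (by omega) (by omega) _ (D.m8 t v) ⊥ (by omega)))
  obtain ⟨b, -, e1, e2, e3⟩ := n9 hu (a := x1 1 * y8 t v * (x1 1)⁻¹) (by simp [CharTwo.add_self_eq_zero])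
  have : y2 s w = b := D.inj (by
    rw [← e, ← e1, map_mul, map_mul, map_inv]
    calc _ = u * D.nf (x1 1) * (u' * D.nf (y8 t v)) * (u * D.nf (x1 1) * u')⁻¹ := by group
      _ = _ := by rw [c]; group)
  subst this
  simp at e2 e3
  rw [e, e2, e3]

theorem act1 {u u' m : G} (hu : u ∈ D.U 9) (hu' : u' ∈ D.U 9) (hm : m = u * D.nf (x1 1) * u')
    (h : Ac D.U m (10 - ·)) {a : Co K} (ha : a ∈ R) : m * D.nf a * m⁻¹ = D.nf (w1 a) := by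
  have e8 := fun t v => cj_eq (hm ▸ sh1 hu hu' (hm ▸ h) t v)
  have hi : m⁻¹ = u'⁻¹ * D.nf (x1 1) * u⁻¹ := by
    rw [hm, mul_inv_rev, mul_inv_rev, ← map_inv, show (x1 1 : Co K)⁻¹ = x1 1 by ext <;> simp, mul_assoc]
  have e2 : ∀ t v, D.cj m (y2 t v) = y8 t v := fun t v => cj_eq (by
    rw [← sh1 (inv_mem hu') (inv_mem hu) (hi ▸ h.inv (by omega)) t v, ← hi]; group)
  have hR : ∀ a ∈ R, D.nf a ∈ pre m (R.map D.nf) := fun a ha =>
    D.indR (fun j _ _ y hy => show m * y * m⁻¹ ∈ R.map D.nf from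
      D.leR (j := 10 - j) (by omega) (by omega) (h.mem hy rfl)) ha
  have := rg1 (β := fun a => w1 (D.cj m a)) (fun a ha b hb => by
      beta_reduce
      rw [cj_ml hR a ha b hb, w1_mul (cj_spec (hR a ha)).1 (cj_spec (hR b hb)).1])
    ⟨fun s u => ⟨s, u, by rw [e2]; ext <;> simp⟩, fun s => by
      obtain ⟨s', e⟩ := (D.u7 _).1 (h.mem (D.m3 s) (by norm_num))
      exact ⟨s', by rw [cj_eq e]; ext <;> simp⟩, fun s u => by
      obtain ⟨s', u', e⟩ := (D.u6 _).1 (h.mem (D.m4 s u) (by norm_num))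
      exact ⟨s', u', by rw [cj_eq e]; ext <;> simp⟩, fun s => by
      obtain ⟨s', e⟩ := (D.u5 _).1 (h.mem (D.m5 s) (by norm_num))
      exact ⟨s', by rw [cj_eq e]; ext <;> simp⟩, fun s u => by
      obtain ⟨s', u', e⟩ := (D.u4 _).1 (h.mem (D.m6 s u) (by norm_num))
      exact ⟨s', u', by rw [cj_eq e]; ext <;> simp⟩, fun s => by
      obtain ⟨s', e⟩ := (D.u3 _).1 (h.mem (D.m7 s) (by norm_num))
      exact ⟨s', by rw [cj_eq e]; ext <;> simp⟩⟩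
    (fun s u => by rw [e2]; ext <;> simp) (fun s u => by rw [e8]; ext <;> simp) a ha
  rw [(cj_spec (hR a ha)).2, ← w1_w1 (cj_spec (hR a ha)).1, this]

theorem c04 {u : G} (hu : u ∈ D.U 0) (s t : K) : u * D.nf (y4 s t) = D.nf (y4 s t) * u := by
  obtain ⟨v, -, v', -, h⟩ := D.mu8 _ (D.m8 0 1) fun e => by
    simpa using congrArg Co.b8 (D.inj (e.trans D.nf.map_one.symm))
  obtain ⟨a, b, e⟩ := (D.u8 _).1 (h.mem hu (by norm_num))
  obtain ⟨c, d, e'⟩ := (D.u4 _).1 (h.mem (D.m4 s t) (by norm_num))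
  have : D.nf (y8 a b) * D.nf (y4 c d) = D.nf (y4 c d) * D.nf (y8 a b) := by
    rw [← map_mul, ← map_mul]; congr 1; ext <;> simp
  rw [← e, ← e'] at this
  generalize v * D.nf (y8 0 1) * v' = m at this
  calc _ = m⁻¹ * (m * u * m⁻¹ * (m * D.nf (y4 s t) * m⁻¹)) * m := by group
    _ = _ := by rw [this]; group

theorem act8 {u u' m : G} {t v : K} (hu : u ∈ D.U 0) (hu' : u' ∈ D.U 0) (hm : m = u * D.nf (y8 t v) * u')
    (h : Ac D.U m (8 - ·)) : ∃ k : Kˣ, (k : K) * σ (k : K) * (t ^ 2 * σ t + t * v + σ v) = 1 ∧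
      ∀ a ∈ Q, m * D.nf a * m⁻¹ = D.nf (w2 (tor 1 k a)) := by
  have e1 : ∀ s, m * D.nf (x1 s) * m⁻¹ = D.nf (x7 ((t ^ 2 * σ t + t * v + σ v) * s)) := fun s => by
    obtain ⟨w, e⟩ := (D.u7 _).1 (h.mem (D.m1 s) (by norm_num))
    have c := commutatorElement_eq_one_iff_mul_comm.1
      (Subgroup.mem_bot.1 (D.c0 u' hu' 1 (by omega) (by omega) _ (D.m1 s) ⊥ (by omega)))
    obtain ⟨b, -, e1, e2⟩ := n0 hu (a := y8 t v * x1 s * (y8 t v)⁻¹) (by simp; grind)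
    have : x7 w = b := D.inj (by
      rw [← e, ← e1, map_mul, map_mul, map_inv, hm]
      calc _ = u * D.nf (y8 t v) * (u' * D.nf (x1 s)) * (u * D.nf (y8 t v) * u')⁻¹ := by group
        _ = _ := by rw [c]; group)
    subst this
    simp at e2
    rw [e, e2]
    congr 2
    grind
  generalize t ^ 2 * σ t + t * v + σ v = ν at e1 ⊢
  have hν : ν ≠ 0 := by
    rintro rfl
    have := e1 1
    rw [show (x7 (0 * 1) : Co K) = 1 by ext <;> simp, map_one, conj_eq_one_iff] at this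
    simpa using congrArg Co.a1 (D.inj (this.trans D.nf.map_one.symm))
  obtain ⟨k, hk⟩ := N_surj ν⁻¹
  have k0 : k ≠ 0 := by rintro rfl; exact inv_ne_zero hν (by simpa using hk.symm)
  have hk' : k * σ k * ν = 1 := by rw [hk, inv_mul_cancel₀ hν]
  have e4 : ∀ s w, D.cj m (y4 s w) = y4 s w := fun s w => cj_eq (by
    have : D.nf (y8 t v) * D.nf (y4 s w) = D.nf (y4 s w) * D.nf (y8 t v) := by
      rw [← map_mul, ← map_mul]; congr 1; ext <;> simp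
    rw [mul_inv_eq_iff_eq_mul, hm, mul_assoc, c04 hu', ← mul_assoc, mul_assoc u, this, ← mul_assoc, c04 hu]
    group)
  have hQ : ∀ a ∈ Q, D.nf a ∈ pre m (Q.map D.nf) := fun a ha =>
    D.indQ (fun j _ _ y hy => show m * y * m⁻¹ ∈ Q.map D.nf from
      D.leQ (j := 8 - j) (by omega) (by omega) (h.mem hy rfl)) ha
  refine ⟨Units.mk0 k k0, hk', fun a ha => ?_⟩
  have := rg2 (β := fun a => tor 1 (Units.mk0 k k0)⁻¹ (w2 (D.cj m a))) (fun a ha b hb => by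
      beta_reduce
      rw [cj_ml hQ a ha b hb, w2_mul (cj_spec (hQ a ha)).1 (cj_spec (hQ b hb)).1, map_mul])
    ⟨fun s u => by
      obtain ⟨s', u', e⟩ := (D.u6 _).1 (h.mem (D.m2 s u) (by norm_num))
      exact ⟨_, _, by rw [cj_eq e]; ext <;> simp <;> rfl⟩, fun s => by
      obtain ⟨s', e⟩ := (D.u5 _).1 (h.mem (D.m3 s) (by norm_num))
      exact ⟨_, by rw [cj_eq e]; ext <;> simp <;> rfl⟩, fun s u => ⟨s, u, by rw [e4]; ext <;> simp⟩, fun s => by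
      obtain ⟨s', e⟩ := (D.u3 _).1 (h.mem (D.m5 s) (by norm_num))
      exact ⟨_, by rw [cj_eq e]; ext <;> simp <;> rfl⟩, fun s u => by
      obtain ⟨s', u', e⟩ := (D.u2 _).1 (h.mem (D.m6 s u) (by norm_num))
      exact ⟨_, _, by rw [cj_eq e]; ext <;> simp <;> rfl⟩, fun s => by
      obtain ⟨s', e⟩ := (D.u1 _).1 (h.mem (D.m7 s) (by norm_num))
      exact ⟨_, by rw [cj_eq e]; ext <;> simp <;> rfl⟩⟩
    (fun s => by
      rw [cj_eq (e1 s)]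
      ext <;> simp
      linear_combination s * hk') (fun s u => by rw [e4]; ext <;> simp) a ha
  rw [(cj_spec (hQ a ha)).2, ← w2_w2 (cj_spec (hQ a ha)).1]
  congr 2
  conv_rhs => rw [← this]
  rw [tor_tor, mul_one, mul_inv_cancel, tor_one]

end Eg

theorem eqns_mu : True := by
  have := @Ac.eq_1.{0}
  have := @Eg.pre.eq_1.{0}
  have := @Eg.cj.eq_1.{0, 0}
  trivial

end FS8E
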