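import Mathlib
import Cfsg.Agent.Lib.FS8E.Mu
import Cfsg.Agent.Lib.Oct.Defs

/-! A coordinatised octagon window gives an octagon group (FS8 end game). -/

set_option autoImplicit false
set_option linter.unusedSectionVars false
set_option linter.unusedSimpArgs false

namespace FS8E

open H78.Oct H78.Oct.Co

variable {K G : Type*} [Field K] [Tits K] [Finite K] [Group G]

namespace Eg

variable (D : Eg K G)

/-- `m` is a reflection in `U₁`. -/
def M1 (m : G) : Prop := Ac D.U m (10 - ·) ∧ ∃ u ∈ D.U 9, ∃ u' ∈ D.U 9, m = u * D.nf (x1 1) * u'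

/-- `m` is a reflection in `U₈`. -/
def M8 (t v : K) (m : G) : Prop := Ac D.U m (8 - ·) ∧ ∃ u ∈ D.U 0, ∃ u' ∈ D.U 0, m = u * D.nf (y8 t v) * u'

/-- `g` is the torus element with parameters `c`, `k`. -/
def Tor (g : G) (c k : Kˣ) : Prop := Ac D.U g id ∧ ∀ a, g * D.nf a * g⁻¹ = D.nf (tor c k a)

theorem ex1 : ∃ m, D.M1 m := by
  obtain ⟨u, hu, u', hu', h⟩ := D.mu1 _ (D.m1 1) fun e => by
    simpa using congrArg Co.a1 (D.inj (e.trans D.nf.map_one.symm))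
  exact ⟨_, h, u, hu, u', hu', rfl⟩

theorem ex8 {t v : K} (h : ¬ (t = 0 ∧ v = 0)) : ∃ m, D.M8 t v m := by
  obtain ⟨u, hu, u', hu', h⟩ := D.mu8 _ (D.m8 t v) fun e =>
    have := D.inj (e.trans D.nf.map_one.symm)
    h ⟨congrArg Co.a8 this, congrArg Co.b8 this⟩
  exact ⟨_, h, u, hu, u', hu', rfl⟩

variable {D} {m n g g' : G} {c k c' k' : Kˣ}

theorem M1.act (h : D.M1 m) {a : Co K} (ha : a ∈ R) : m * D.nf a * m⁻¹ = D.nf (w1 a) :=
  let ⟨h, _, hu, _, hu', e⟩ := h; act1 hu hu' e h ha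

theorem M8.act {t v : K} (h : D.M8 t v m) : ∃ k : Kˣ, (k : K) * σ (k : K) * (t ^ 2 * σ t + t * v + σ v) = 1 ∧
    ∀ a ∈ Q, m * D.nf a * m⁻¹ = D.nf (w2 (tor 1 k a)) :=
  let ⟨h, _, hu, _, hu', e⟩ := h; act8 hu hu' e h

theorem M8.act1 (h : D.M8 0 1 m) {a : Co K} (ha : a ∈ Q) : m * D.nf a * m⁻¹ = D.nf (w2 a) := by
  obtain ⟨k, hk, e⟩ := h.act
  obtain rfl : k = 1 := Units.ext (N_inj (by simpa using hk))
  rw [e a ha, tor_one]

theorem gen' (h1 : D.M1 m) (h2 : D.M8 0 1 n) (X : Subgroup G) (h : ∀ a, D.nf a ∈ X) (hm : m ∈ X)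
    (hn : n ∈ X) : X = ⊤ := by
  have r := h1.1.mul h2.1
  have k : ∀ j, D.U j ≤ X ↔ D.U (j + 2) ≤ X := fun j =>
    ⟨fun e y hy => by
      have := e ((r.inv (f' := (· - 2)) (by omega)).mem hy (k := j) (by omega))
      simpa [mul_assoc] using mul_mem (mul_mem (mul_mem hm hn) this) (inv_mem (mul_mem hm hn)),
    fun e y hy => by
      have := e (r.mem hy (by omega))
      simpa [mul_assoc] using mul_mem (mul_mem (inv_mem (mul_mem hm hn)) this) (mul_mem hm hn)⟩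
  have b : ∀ j, 1 ≤ j → j ≤ 8 → D.U j ≤ X := fun j a b y hy => by
    obtain ⟨a, -, rfl⟩ := D.leT a b hy; exact h a
  have : ∀ i : ℤ, D.U (2 * i + 1) ≤ X ∧ D.U (2 * i + 2) ≤ X := fun i => by
    induction i using Int.induction_on with
    | zero => exact ⟨b _ (by omega) (by omega), b _ (by omega) (by omega)⟩
    | succ i ih => exact ⟨by convert (k _).1 ih.1 using 2; omega, by convert (k _).1 ih.2 using 2; omega⟩
    | pred i ih => exact ⟨(k _).2 (by convert ih.1 using 2; omega), (k _).2 (by convert ih.2 using 2; omega)⟩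
  refine D.gen X fun j => ?_
  rcases Int.emod_two_eq_zero_or_one j with e | e
  · convert (this (j / 2 - 1)).2 using 2; omega
  · convert (this (j / 2)).1 using 2; omega

theorem faith (h : Ac D.U g id) (e : ∀ a, g * D.nf a * g⁻¹ = D.nf a) : g = 1 := by
  obtain ⟨m, h1⟩ := D.ex1
  obtain ⟨n, h2⟩ := D.ex8 (t := 0) (v := 1) (by simp)
  have k : ∀ {u : G} {a b : Co K}, u * D.nf a * u⁻¹ = D.nf b →
      (u⁻¹ * (g * u * g⁻¹)) * D.nf a = D.nf a * (u⁻¹ * (g * u * g⁻¹)) := fun {u a b} e1 => by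
    calc _ = u⁻¹ * (g * (u * (g⁻¹ * (g * D.nf a * g⁻¹) * g) * u⁻¹) * g⁻¹) * (g * u * g⁻¹) := by rw [e]; group
      _ = u⁻¹ * (g * (u * D.nf a * u⁻¹) * g⁻¹) * (g * u * g⁻¹) := by group
      _ = _ := by rw [e1, e, ← e1]; group
  have k' : ∀ {w d : G} {a b c : Co K}, d * D.nf a = D.nf a * d → w * d * w⁻¹ = D.nf c →
      w * D.nf a * w⁻¹ = D.nf b → c * b = b * c := fun {w d a b c} e1 e2 e3 => D.inj (by
    rw [map_mul, map_mul, ← e2, ← e3]
    calc _ = w * (d * D.nf a) * w⁻¹ := by group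
      _ = _ := by rw [e1]; group)
  have c9 : ∀ u ∈ D.U 9, u * g = g * u := fun u hu => by
    obtain ⟨b, -, e1, -⟩ := n9 hu (a := y2 1 0) (by simp)
    obtain ⟨s, e2⟩ := (D.u1 _).1 (h1.1.mem (mul_mem (inv_mem hu) (h.mem hu rfl)) (by norm_num))
    have := congrArg Co.a2 (k' (k e1) e2 (h1.act (by simp)))
    simp at this
    rw [← this, show (x1 0 : Co K) = 1 from rfl, map_one, conj_eq_one_iff, inv_mul_eq_one] at e2
    rw [eq_mul_inv_iff_mul_eq.1 e2]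
  have c0 : ∀ u ∈ D.U 0, u * g = g * u := fun u hu => by
    obtain ⟨b, -, e1, -⟩ := n0 hu (a := x7 1) (by simp)
    obtain ⟨s, t, e2⟩ := (D.u8 _).1 (h2.1.mem (mul_mem (inv_mem hu) (h.mem hu rfl)) (by norm_num))
    have a := congrArg Co.a2 (k' (k e1) e2 (h2.act1 (by simp)))
    have b := congrArg Co.a4 (k' (k e1) e2 (h2.act1 (by simp)))
    simp at a b
    rw [a, b, show (y8 0 0 : Co K) = 1 from rfl, map_one, conj_eq_one_iff, inv_mul_eq_one] at e2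
    rw [eq_mul_inv_iff_mul_eq.1 e2]
  have cn : ∀ a, D.nf a * g = g * D.nf a := fun a => (mul_inv_eq_iff_eq_mul.1 (e a)).symm
  have mm : ∀ x, x ∈ Subgroup.centralizer ({g} : Set G) ↔ x * g = g * x := fun x =>
    Subgroup.mem_centralizer_singleton_iff
  have := gen' h1 h2 (Subgroup.centralizer {g}) (fun a => (mm _).2 (cn a))
    (by obtain ⟨-, u, hu, u', hu', rfl⟩ := h1
        exact mul_mem (mul_mem ((mm _).2 (c9 u hu)) ((mm _).2 (cn _))) ((mm _).2 (c9 u' hu')))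
    (by obtain ⟨-, u, hu, u', hu', rfl⟩ := h2
        exact mul_mem (mul_mem ((mm _).2 (c0 u hu)) ((mm _).2 (cn _))) ((mm _).2 (c0 u' hu')))
  exact D.cen g fun x => (mm x).1 (this ▸ Subgroup.mem_top x)

theorem tor_ind (h : Ac D.U g id) (a : Co K) : D.nf a ∈ pre g ((⊤ : Subgroup (Co K)).map D.nf) :=
  D.indT (fun _ a b y hy => show g * y * g⁻¹ ∈ _ from D.leT a b (h.mem hy rfl)) a

theorem tor_of (h : Ac D.U g id) (e : ∀ a, tor c⁻¹ k⁻¹ (D.cj g a) = a) : D.Tor g c k := ⟨h, fun a => by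
  rw [(cj_spec (tor_ind h a)).2]
  conv_rhs => rw [← e a]
  rw [tor_tor, mul_inv_cancel, mul_inv_cancel, tor_one]⟩

theorem tor_ml (h : Ac D.U g id) : Ml ⊤ fun a => tor c⁻¹ k⁻¹ (D.cj g a) := fun a ha b hb => by
  beta_reduce
  rw [cj_ml (fun a _ => tor_ind h a) a ha b hb, map_mul]

theorem torR (h : Ac D.U g id) (e : ∀ a ∈ R, g * D.nf a * g⁻¹ = D.nf (tor c k a)) : D.Tor g c k :=
  tor_of h (rg3 (tor_ml h) (fun s => by
    obtain ⟨s', e⟩ := (D.u1 _).1 (h.mem (D.m1 s) rfl)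
    exact ⟨_, by rw [cj_eq e]; ext <;> simp <;> rfl⟩) fun a ha => by
    rw [cj_eq (e a ha), tor_tor, inv_mul_cancel, inv_mul_cancel, tor_one])

theorem torQ (h : Ac D.U g id) (e : ∀ a ∈ Q, g * D.nf a * g⁻¹ = D.nf (tor c k a)) : D.Tor g c k :=
  tor_of h (rg4 (tor_ml h) (fun s u => by
    obtain ⟨s', u', e⟩ := (D.u8 _).1 (h.mem (D.m8 s u) rfl)
    exact ⟨_, _, by rw [cj_eq e]; ext <;> simp <;> rfl⟩) fun a ha => by
    rw [cj_eq (e a ha), tor_tor, inv_mul_cancel, inv_mul_cancel, tor_one])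

theorem Tor.mul (h : D.Tor g c k) (h' : D.Tor g' c' k') : D.Tor (g * g') (c * c') (k * k') :=
  ⟨h.1.mul h'.1, fun a => by rw [← tor_tor, ← h.2, ← h'.2]; group⟩

theorem Tor.uniq (h : D.Tor g c k) (h' : D.Tor g' c k) : g = g' :=
  (inv_mul_eq_one.1 (faith ((h'.1.inv (f' := id) fun _ => rfl).mul h.1) fun a => by
    rw [mul_inv_rev, inv_inv, show g'⁻¹ * g * D.nf a * (g⁻¹ * g') = g'⁻¹ * (g * D.nf a * g⁻¹) * g' by group,
      h.2, ← h'.2]; group)).symm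

theorem tor_1 : D.Tor 1 1 1 := ⟨ac_one, fun a => by simp [tor_one]⟩

theorem M1.mul (h : D.M1 m) (h' : D.M1 n) : m * n = 1 :=
  (torR ((h.1.mul h'.1).congr' (by simp)) fun a ha => by
    conv_rhs => rw [tor_one, ← w1_w1 ha, ← h.act (w1_mem a), ← h'.act ha]
    group).uniq tor_1

theorem M8.tor {t v : K} (h : D.M8 0 1 n) (h' : D.M8 t v m) : ∃ k : Kˣ,
    (k : K) * σ (k : K) * (t ^ 2 * σ t + t * v + σ v) = 1 ∧ D.Tor (n * m) 1 k := by
  obtain ⟨k, hk, e⟩ := h'.act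
  exact ⟨k, hk, torQ ((h.1.mul h'.1).congr' (by simp)) fun a ha => by
    rw [← w2_w2 (tor_Q 1 k ha), ← h.act1 (w2_mem _), ← e a ha]; group⟩

theorem M8.sq (h : D.M8 0 1 n) : n * n = 1 := by
  obtain ⟨k, hk, e⟩ := h.tor h
  obtain rfl : k = 1 := Units.ext (N_inj (by simpa using hk))
  exact e.uniq tor_1

theorem Tor.c1 (h : D.Tor g c k) (h1 : D.M1 m) : D.Tor (m * g * m) k c :=
  torR (((h1.1.mul h.1).mul h1.1).congr' (by simp)) fun a ha => by
    rw [← w1_w1 (tor_R k c ha), w1_tor k c, ← h1.act (tor_R c k (w1_mem a)), ← h.2, ← h1.act ha]; group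

theorem Tor.c2 (h : D.Tor g c k) (h2 : D.M8 0 1 n) : D.Tor (n * g * n) c (σu c * k⁻¹) :=
  torQ (((h2.1.mul h.1).mul h2.1).congr' (by simp)) fun a ha => by
    conv_rhs => rw [← w2_w2 ha, ← w2_tor', ← h2.act1 (tor_Q c k (w2_mem a)), ← h.2, ← h2.act1 ha]
    group

theorem ex_tor (D : Eg K G) (x : Kˣ × Kˣ) : ∃ g, D.Tor g x.1 x.2 := by
  obtain ⟨m, h1⟩ := D.ex1
  obtain ⟨n, h2⟩ := D.ex8 (t := 0) (v := 1) (by simp)
  have a : ∀ k : Kˣ, ∃ g, D.Tor g 1 k := fun k => by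
    have n0 := mul_ne_zero k.ne_zero (σ_ne k.ne_zero)
    obtain ⟨v, hv⟩ := (σ : K ≃+* K).surjective ((k : K) * σ (k : K))⁻¹
    obtain ⟨m', h3⟩ := D.ex8 (t := 0) (v := v) (by
      rintro ⟨-, rfl⟩; exact inv_ne_zero n0 (by simpa using hv.symm))
    obtain ⟨k', hk, e⟩ := h2.tor h3
    obtain rfl : k' = k := Units.ext (N_inj (by
      simp only [ne_eq, OfNat.ofNat_ne_zero, not_false_eq_true, zero_pow, map_zero, mul_zero, zero_mul, add_zero,
        zero_add, hv] at hk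
      exact (mul_inv_eq_one₀ n0).1 hk))
    exact ⟨_, e⟩
  obtain ⟨g, hg⟩ := a x.1
  obtain ⟨g', hg'⟩ := a x.2
  exact ⟨_, by simpa using (hg.c1 h1).mul hg'⟩

theorem braid (h1 : D.M1 m) (h2 : D.M8 0 1 n) : (m * n) ^ 8 = 1 := by
  have ac := ((((((h2.1.mul h1.1).mul h2.1).mul h1.1).mul h2.1).mul h1.1).mul h2.1).congr' (f' := (2 - ·)) (by omega)
  have e : (n * m * n * m * n * m * n) * D.nf (x1 1) * (n * m * n * m * n * m * n)⁻¹ = D.nf (x1 1) := by
    have a1 : n * D.nf (x1 1) * n⁻¹ = D.nf (x7 1) := by rw [h2.act1 (by simp)]; congr 1; ext <;> simp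
    have a2 : m * D.nf (x7 1) * m⁻¹ = D.nf (x3 1) := by rw [h1.act (by simp)]; congr 1; ext <;> simp
    have a3 : n * D.nf (x3 1) * n⁻¹ = D.nf (x5 1) := by rw [h2.act1 (by simp)]; congr 1; ext <;> simp
    have a4 : m * D.nf (x5 1) * m⁻¹ = D.nf (x5 1) := by rw [h1.act (by simp)]; congr 1; ext <;> simp
    have a5 : n * D.nf (x5 1) * n⁻¹ = D.nf (x3 1) := by rw [h2.act1 (by simp)]; congr 1; ext <;> simp
    have a6 : m * D.nf (x3 1) * m⁻¹ = D.nf (x7 1) := by rw [h1.act (by simp)]; congr 1; ext <;> simp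
    have a7 : n * D.nf (x7 1) * n⁻¹ = D.nf (x1 1) := by rw [h2.act1 (by simp)]; congr 1; ext <;> simp
    conv_rhs => rw [← a7, ← a6, ← a5, ← a4, ← a3, ← a2, ← a1]
    group
  have p : D.U (2 - 9) = D.U 9 := by rw [← D.per]; norm_num
  have mm := h1.mul h1
  have nn := h2.sq
  have k : ∀ b : G, Ac D.U b (2 - ·) → b * D.nf (x1 1) * b⁻¹ = D.nf (x1 1) → b * m = m * b := fun b ac e => by
    have : D.M1 (b * m * b⁻¹) := by
      obtain ⟨h, u, hu, u', hu', em⟩ := h1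
      refine ⟨((ac.mul h).mul (ac.inv (f' := (2 - ·)) (by omega))).congr fun j => ?_, b * u * b⁻¹,
        p ▸ ac.mem hu rfl, b * u' * b⁻¹, p ▸ ac.mem hu' rfl, ?_⟩
      · rw [← D.per]; congr 1; omega
      · conv_rhs => rw [← e]
        rw [em]; group
    rw [← mul_inv_eq_iff_eq_mul, eq_inv_of_mul_eq_one_left (this.mul h1), inv_eq_of_mul_eq_one_right mm]
  have := k _ ac e
  calc (m * n) ^ 8 = (m * (n * m * n * m * n * m * n)) * (m * n * m * n * m * n * m * n) := by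
        simp only [pow_succ, pow_zero, one_mul, mul_assoc]
    _ = n * (m * (n * (m * (n * (m * (n * ((m * m) * n) * m) * n) * m) * n) * m) * n) := by rw [← this]; group
    _ = 1 := by simp [mm, nn, mul_assoc]

theorem M1.eq (h : D.M1 m) : m * D.nf (x1 1) * m = D.nf (x1 1) * m * D.nf (x1 1) := by
  have mm := h.mul h
  have mi := inv_eq_of_mul_eq_one_right mm
  have h' := h
  obtain ⟨ac, u, hu, u', hu', e⟩ := h'
  obtain ⟨a, ea⟩ := (D.u1 _).1 (ac.mem (inv_mem hu) (by norm_num))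
  obtain ⟨b, eb⟩ := (D.u1 _).1 (ac.mem (inv_mem hu') (by norm_num))
  have e1 : m * D.nf (x1 1) * m = D.nf (x1 a) * m * D.nf (x1 b) := by
    rw [← ea, ← eb, show D.nf (x1 1) = u⁻¹ * m * u'⁻¹ by rw [e]; group, mi]
    calc _ = m * u⁻¹ * (m * m) * m * u'⁻¹ * m := by rw [mm]; group
      _ = _ := by group
  have nR : ∀ (g : Co K) {r : Co K}, r ∈ R → g * r * g⁻¹ ∈ R := fun g r hr => by
    rw [mem_R] at hr ⊢; simp [hr, CharTwo.add_self_eq_zero]
  have k : ∀ r ∈ R, w1 (x1 1 * w1 r * (x1 1)⁻¹) = x1 a * w1 (x1 b * r * (x1 b)⁻¹) * (x1 a)⁻¹ := fun r hr => D.inj (by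
    rw [← h.act (nR _ (w1_mem r)), map_mul, map_mul, map_mul, map_mul, ← h.act hr, ← h.act (nR _ hr),
      map_mul, map_mul, map_inv, map_inv, map_inv]
    calc _ = (m * D.nf (x1 1) * m) * D.nf r * (m * D.nf (x1 1) * m)⁻¹ := by group
      _ = _ := by rw [e1]; group)
  have f1 : ∀ b : K, w1 (x1 b * y4 0 1 * (x1 b)⁻¹) = y6 0 1 := fun b => by
    ext <;> simp [CharTwo.add_self_eq_zero]
  have f2 : ∀ b : K, w1 (x1 b * y6 0 1 * (x1 b)⁻¹) = y4 0 1 * y6 0 b := fun b => by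
    ext <;> simp [CharTwo.add_self_eq_zero]
  have k1 := k (y4 0 1) (by simp)
  have k2 := k (y6 0 1) (by simp)
  rw [show w1 (y4 0 1 : Co K) = y6 0 1 by ext <;> simp, f2, f1] at k1
  rw [show w1 (y6 0 1 : Co K) = y4 0 1 by ext <;> simp, f2, f1] at k2
  obtain rfl : 1 = a := by simpa using congrArg Co.b4 k1
  obtain rfl : 1 = b := by simpa using congrArg Co.b6 k2
  exact e1

theorem oct (D : Eg K G) : Nonempty (Oct K G) := by
  obtain ⟨m, h1⟩ := D.ex1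
  obtain ⟨n, h2⟩ := D.ex8 (t := 0) (v := 1) (by simp)
  choose h hh using D.ex_tor
  have mm := h1.mul h1
  have nn := h2.sq
  have mi := inv_eq_of_mul_eq_one_right mm
  have ni := inv_eq_of_mul_eq_one_right nn
  let θ : Kˣ × Kˣ →* G := MonoidHom.mk' h fun x y => (hh _).uniq ((hh x).mul (hh y))
  have t1 : ∀ c k, m * θ (c, k) * m = θ (k, c) := fun c k => ((hh (c, k)).c1 h1).uniq (hh _)
  have xx : D.nf (x1 1) * D.nf (x1 1) = 1 := by
    rw [← map_mul, ← D.nf.map_one]; congr 1; ext <;> simp [CharTwo.add_self_eq_zero]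
  refine ⟨⟨D.nf, D.inj, m, n, mm, nn, braid h1 h2, fun a ha => by rw [← h1.act ha, mi], fun a ha => by rw [← h2.act1 ha, ni], θ,
    fun c k => (hh (c, k)).2, t1, fun c k => ((hh (c, k)).c2 h2).uniq (hh _), fun s hs => ?_, ?_,
    fun t v h0 => ?_, fun a b e => ?_, fun X a b c => gen' h1 h2 X a b c⟩⟩
  · obtain ⟨c, rfl⟩ := N_surj s
    have c0 : c ≠ 0 := by rintro rfl; simp at hs
    have e1 := (hh (Units.mk0 c c0, 1)).2 (x1 1)
    have e2 := (hh (1, Units.mk0 c c0)).2 (x1 1)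
    rw [show tor (Units.mk0 c c0, (1 : Kˣ)).1 (Units.mk0 c c0, (1 : Kˣ)).2 (x1 1) = x1 (c * σ c) by ext <;> simp] at e1
    rw [show tor ((1 : Kˣ), Units.mk0 c c0).1 ((1 : Kˣ), Units.mk0 c c0).2 (x1 1) = x1 (c * σ c)⁻¹ by
      ext <;> simp] at e2
    refine ⟨(c * σ c)⁻¹, (c * σ c)⁻¹, (1, Units.mk0 c c0) * (Units.mk0 c c0, 1)⁻¹, ?_⟩
    rw [map_mul, map_inv, ← e1, ← e2]
    change m * (θ _ * _ * (θ _)⁻¹) * m = θ _ * _ * (θ _)⁻¹ * _ * m * (θ _ * _ * (θ _)⁻¹)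
    rw [← t1 (Units.mk0 c c0) 1]
    generalize θ (Units.mk0 c c0, 1) = g
    have key : m * D.nf (x1 1) * m * D.nf (x1 1) * m = D.nf (x1 1) := by
      rw [h1.eq, mul_assoc _ _ (D.nf _), xx, mul_one, mul_assoc, mm, mul_one]
    calc _ = m * g * (m * D.nf (x1 1) * m * D.nf (x1 1) * m) * g⁻¹ * m := by rw [key]; group
      _ = m * g * m * D.nf (x1 1) * g⁻¹ * (m * m) * g * m * D.nf (x1 1) * m⁻¹ * g⁻¹ * m⁻¹ := by
        rw [mm, mi]; group
      _ = _ := by group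
  · rw [h1.eq]
    calc m = (D.nf (x1 1) * D.nf (x1 1)) * m * (D.nf (x1 1) * D.nf (x1 1)) := by rw [xx]; group
      _ = _ := by group
  · obtain ⟨m', h3⟩ := D.ex8 h0
    obtain ⟨k, -, e⟩ := h2.tor h3
    obtain ⟨-, u, hu, u', hu', rfl⟩ := h3
    obtain ⟨a, b, ea⟩ := (D.u8 _).1 (h2.1.mem (inv_mem hu) (by norm_num))
    obtain ⟨a', b', eb⟩ := (D.u8 _).1 (h2.1.mem (inv_mem hu') (by norm_num))
    refine ⟨a, b, a', b', (1, k), ?_⟩
    rw [← ea, ← eb, show θ (1, k) = _ from (hh (1, k)).uniq e, ni]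
    calc _ = n * u⁻¹ * (n * n) * (u * D.nf (y8 t v) * u') * (n * n) * u'⁻¹ * n := by rw [nn]; group
      _ = _ := by group
  · have r := h1.1.mul h2.1
    have r4 := ((r.mul r).mul r).mul r
    have e8 := braid h1 h2
    rw [show (m * n) ^ 8 = (m * n) ^ 4 * (m * n) ^ 4 by rw [← pow_add]] at e8
    have e4 : m * n * (m * n) * (m * n) * (m * n) = (m * n) ^ 4 := by simp only [pow_succ, pow_zero, one_mul]
    rw [e4] at r4
    have : b = 1 := D.opp b fun H hH => by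
      rw [← e]
      nth_rewrite 2 [← inv_eq_of_mul_eq_one_right e8]
      exact D.indT (H := pre ((m * n) ^ 4) H) (fun j _ _ y hy =>
        hH (j + 8) (by omega) (by omega) (r4.mem hy (by omega))) a
    rw [this, map_one] at e
    nth_rewrite 2 [← inv_eq_of_mul_eq_one_right e8] at e
    exact D.inj ((conj_eq_one_iff.1 e).trans D.nf.map_one.symm)

end Eg

theorem eqns_oc : True := by
  have := @Eg.M1.eq_1.{0, 0}
  have := @Eg.M8.eq_1.{0, 0}
  have := @Eg.Tor.eq_1.{0, 0}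
  trivial

end FS8E
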