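import Mathlib
import Cfsg.Agent.Lib.Oct.GR

/-! Octagon groups over the same field are isomorphic (FS8 end game). -/

set_option autoImplicit false
set_option linter.unusedSectionVars false

namespace FS8E

open H78.Oct H78.Oct.Co

variable {K Γ G : Type*} [Field K] [Tits K] [Group Γ] [Group G]

theorem uq_n1 (O : Oct K Γ) {a : Co K} (ha : a ∈ R) : O.n1 * O.nf a * O.n1⁻¹ = O.nf (w1 a) := by
  rw [inv_eq_of_mul_eq_one_right O.n11, O.n1_nf a ha]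

theorem uq_n2 (O : Oct K Γ) {a : Co K} (ha : a ∈ Q) : O.n2 * O.nf a * O.n2⁻¹ = O.nf (w2 a) := by
  rw [inv_eq_of_mul_eq_one_right O.n22, O.n2_nf a ha]

theorem uq_R (g : Co K) {r : Co K} (hr : r ∈ R) : g * r * g⁻¹ ∈ R := by
  rw [mem_R] at hr ⊢; simp [hr, CharTwo.add_self_eq_zero]

theorem uq_Q (g : Co K) {r : Co K} (hr : r ∈ Q) : g * r * g⁻¹ ∈ Q := by
  rw [mem_Q] at hr ⊢; simp [hr, CharTwo.add_self_eq_zero]

theorem uq_act1 (O : Oct K Γ) {g a b : Co K} {x : Kˣ × Kˣ}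
    (e : O.n1 * O.nf g * O.n1 = O.nf a * O.h x * O.n1 * O.nf b) {r : Co K} (hr : r ∈ R) :
    w1 (g * w1 r * g⁻¹) = a * tor x.1 x.2 (w1 (b * r * b⁻¹)) * a⁻¹ := O.inj (by
  rw [← uq_n1 O (uq_R g (w1_mem r)), map_mul, map_mul, map_mul, map_mul, ← uq_n1 O hr, ← O.h_nf,
    ← uq_n1 O (uq_R b hr), map_mul, map_mul, map_inv, map_inv, map_inv]
  calc _ = (O.n1 * O.nf g * O.n1) * O.nf r * (O.n1 * O.nf g * O.n1)⁻¹ := by group
    _ = _ := by rw [e]; group)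

theorem uq_act2 (O : Oct K Γ) {g a b : Co K} {x : Kˣ × Kˣ}
    (e : O.n2 * O.nf g * O.n2 = O.nf a * O.h x * O.n2 * O.nf b) {r : Co K} (hr : r ∈ Q) :
    w2 (g * w2 r * g⁻¹) = a * tor x.1 x.2 (w2 (b * r * b⁻¹)) * a⁻¹ := O.inj (by
  rw [← uq_n2 O (uq_Q g (w2_mem r)), map_mul, map_mul, map_mul, map_mul, ← uq_n2 O hr, ← O.h_nf,
    ← uq_n2 O (uq_Q b hr), map_mul, map_mul, map_inv, map_inv, map_inv]
  calc _ = (O.n2 * O.nf g * O.n2) * O.nf r * (O.n2 * O.nf g * O.n2)⁻¹ := by group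
    _ = _ := by rw [e]; group)

theorem uq_par1 {a b a' b' : K} {x x' : Kˣ × Kˣ}
    (h : ∀ r ∈ R, x1 a * tor x.1 x.2 (w1 (x1 b * r * (x1 b)⁻¹)) * (x1 a)⁻¹ =
      x1 a' * tor x'.1 x'.2 (w1 (x1 b' * r * (x1 b')⁻¹)) * (x1 a')⁻¹) : a = a' ∧ b = b' ∧ x = x' := by
  obtain ⟨c, k⟩ := x
  obtain ⟨c', k'⟩ := x'
  have e1 : ∀ b : K, w1 (x1 b * y4 0 1 * (x1 b)⁻¹) = y6 0 1 := fun b => by
    ext <;> simp [CharTwo.add_self_eq_zero]
  have e2 : ∀ b : K, w1 (x1 b * y6 0 1 * (x1 b)⁻¹) = y4 0 1 * y6 0 b := fun b => by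
    ext <;> simp [CharTwo.add_self_eq_zero]
  have h1 := h (y4 0 1) (by simp)
  have h2 := h (y6 0 1) (by simp)
  rw [e1, e1] at h1
  rw [e2, e2] at h2
  have n := mul_ne_zero k.ne_zero (σ_ne k.ne_zero)
  have a1 : k = k' := Units.ext (N_inj (by simpa using congrArg Co.b6 h1))
  subst a1
  have a2 : a = a' := mul_left_cancel₀ n (by simpa using congrArg Co.b4 h1)
  subst a2
  have a3 : b = b' := mul_left_cancel₀ n (by simpa using congrArg Co.b6 h2)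
  subst a3
  have a4 : c = c' := Units.ext (N_inj (by simpa using congrArg Co.b4 h2))
  exact ⟨rfl, rfl, by rw [a4]⟩

theorem uq_y8 {a b a' b' : K} (h : y8 a b * x1 1 * (y8 a b)⁻¹ = y8 a' b' * x1 1 * (y8 a' b')⁻¹) :
    a = a' ∧ b = b' := by
  have h1 : a = a' := by simpa using congrArg Co.a2 h
  exact ⟨h1, by simpa using congrArg Co.a4 h⟩

theorem uq_w2inj {a b : Co K} (ha : a ∈ Q) (hb : b ∈ Q) (h : w2 a = w2 b) : a = b := by
  rw [← w2_w2 ha, h, w2_w2 hb]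

theorem uq_torinj {c k : Kˣ} {a b : Co K} (h : tor c k a = tor c k b) : a = b := by
  have := congrArg (tor c⁻¹ k⁻¹) h
  rwa [tor_tor, tor_tor, inv_mul_cancel, inv_mul_cancel, tor_one, tor_one] at this

theorem uq_par2 {a b u v a' b' u' v' : K} {x x' : Kˣ × Kˣ}
    (h : ∀ r ∈ Q, y8 a b * tor x.1 x.2 (w2 (y8 u v * r * (y8 u v)⁻¹)) * (y8 a b)⁻¹ =
      y8 a' b' * tor x'.1 x'.2 (w2 (y8 u' v' * r * (y8 u' v')⁻¹)) * (y8 a' b')⁻¹) :
    a = a' ∧ b = b' ∧ u = u' ∧ v = v' ∧ x = x' := by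
  obtain ⟨c, k⟩ := x
  obtain ⟨c', k'⟩ := x'
  have e1 : ∀ u v : K, w2 (y8 u v * y4 1 0 * (y8 u v)⁻¹) = y4 1 0 := fun u v => by
    ext <;> simp [CharTwo.add_self_eq_zero]
  have e2 : ∀ u v : K, w2 (y8 u v * x7 1 * (y8 u v)⁻¹) = x1 1 := fun u v => by
    ext <;> simp [CharTwo.add_self_eq_zero]
  have h1 := h (y4 1 0) (by simp)
  have h2 := h (x7 1) (by simp)
  rw [e1, e1] at h1
  rw [e2, e2] at h2
  have a1 : c = c' := Units.ext (by simpa using congrArg Co.a4 h1)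
  subst a1
  have n := mul_ne_zero c.ne_zero (σ_ne c.ne_zero)
  have a2 : k = k' := Units.ext (N_inj (inv_injective (mul_left_cancel₀ n (by
    simpa only [mul_a1, y8_a1, inv_a1, tor_a1, x1_a1, mul_one, zero_add, add_zero] using congrArg Co.a1 h2))))
  subst a2
  have n' := mul_ne_zero n (inv_ne_zero (mul_ne_zero k.ne_zero (σ_ne k.ne_zero)))
  have e3 : tor c k (x1 1) = x1 ((c : K) * σ (c : K) * ((k : K) * σ (k : K))⁻¹) := by ext <;> simp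
  simp only [e3] at h2
  generalize (c : K) * σ (c : K) * ((k : K) * σ (k : K))⁻¹ = l at h2 n'
  have a3 : a = a' := mul_right_cancel₀ n' (by simpa using congrArg Co.a2 h2)
  have a4 : b = b' := mul_right_cancel₀ (σ_ne n') (by simpa using congrArg Co.a4 h2)
  subst a3 a4
  have h3 := h (x1 1) (by simp)
  rw [mul_left_inj, mul_right_inj] at h3
  obtain ⟨rfl, rfl⟩ := uq_y8 (uq_w2inj (uq_Q _ (by simp)) (uq_Q _ (by simp)) (uq_torinj h3))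
  exact ⟨rfl, rfl, rfl, rfl, rfl⟩

/-- The diagonal. -/
def uqD (O : Oct K Γ) (O' : Oct K G) : Pre K (Γ × G) where
  nf := O.nf.prod O'.nf
  n1 := (O.n1, O'.n1)
  n2 := (O.n2, O'.n2)
  n11 := Prod.ext O.n11 O'.n11
  n22 := Prod.ext O.n22 O'.n22
  rho := Prod.ext O.rho O'.rho
  n1_nf a ha := Prod.ext (O.n1_nf a ha) (O'.n1_nf a ha)
  n2_nf a ha := Prod.ext (O.n2_nf a ha) (O'.n2_nf a ha)
  h := O.h.prod O'.h
  h_nf c k a := Prod.ext (O.h_nf c k a) (O'.h_nf c k a)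
  n1_h c k := Prod.ext (O.n1_h c k) (O'.n1_h c k)
  n2_h c k := Prod.ext (O.n2_h c k) (O'.n2_h c k)
  sl2 s hs := by
    obtain ⟨a, b, x, e⟩ := O.sl2 s hs
    obtain ⟨a', b', x', e'⟩ := O'.sl2 s hs
    obtain ⟨rfl, rfl, rfl⟩ := uq_par1 fun r hr => (uq_act1 O e hr).symm.trans (uq_act1 O' e' hr)
    exact ⟨a, b, x, Prod.ext e e'⟩
  sz t v h := by
    obtain ⟨a, b, u, w, x, e⟩ := O.sz t v h
    obtain ⟨a', b', u', w', x', e'⟩ := O'.sz t v h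
    obtain ⟨rfl, rfl, rfl, rfl, rfl⟩ := uq_par2 fun r hr => (uq_act2 O e hr).symm.trans (uq_act2 O' e' hr)
    exact ⟨a, b, u, w, x, Prod.ext e e'⟩

theorem uq_one [Finite K] [Finite Γ] {X : Type*} [Group X] (D : Pre K X) (O : Oct K Γ) (π : X →* Γ)
    (h1 : ∀ a, π (D.nf a) = O.nf a) (h2 : ∀ x, π (D.h x) = O.h x) (h3 : π D.n1 = O.n1) (h4 : π D.n2 = O.n2) {g : X}
    (hg : ∃ a x j b, j < 8 ∧ (g = D.nf a * D.h x * (D.n1 * D.n2) ^ j * D.nf b ∨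
        g = D.nf a * D.h x * ((D.n1 * D.n2) ^ j * D.n2) * D.nf b)) (e0 : π g = 1) : g = 1 := by
  obtain ⟨a, x, j, b, hj, e | e⟩ := hg
  · have e1 : 1 = O.nf a * O.h x * (O.n1 * O.n2) ^ j * O.nf b := by
      rw [← e0, e]; simp only [map_mul, map_pow, h1, h2, h3, h4]
    obtain rfl := O.rot_norm hj (gr_norm O e1)
    obtain ⟨e2, rfl⟩ := O.nf_h (a := b * a) (x := x) (by
      rw [pow_zero, mul_one] at e1
      rw [map_mul, mul_assoc, mul_eq_one_comm, ← e1])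
    rw [e, pow_zero, map_one, mul_one, mul_one, ← map_mul, mul_eq_one_comm.1 e2, map_one]
  · have e1 : 1 = O.nf a * O.h x * ((O.n1 * O.n2) ^ j * O.n2) * O.nf b := by
      rw [← e0, e]; simp only [map_mul, map_pow, h1, h2, h3, h4]
    exact (O.refl_norm j (gr_norm O e1)).elim

theorem oct_equiv [Finite K] [Finite Γ] [Finite G] (O : Oct K Γ) (O' : Oct K G) : Nonempty (G ≃* Γ) := by
  obtain ⟨Y, y1, y2, y3, y4, y5⟩ := (uqD O O').bruhat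
  have b1 : Function.Bijective ((MonoidHom.fst Γ G).comp Y.subtype) :=
    ⟨(injective_iff_map_eq_one _).2 fun g hg => Subtype.ext (uq_one (uqD O O') O (MonoidHom.fst Γ G)
      (fun _ => rfl) (fun _ => rfl) rfl rfl (y5 g g.2) hg), MonoidHom.range_eq_top.1
      (O.gen _ (fun a => ⟨⟨_, y1 a⟩, rfl⟩) ⟨⟨_, y3⟩, rfl⟩ ⟨⟨_, y4⟩, rfl⟩)⟩
  have b2 : Function.Bijective ((MonoidHom.snd Γ G).comp Y.subtype) :=
    ⟨(injective_iff_map_eq_one _).2 fun g hg => Subtype.ext (uq_one (uqD O O') O' (MonoidHom.snd Γ G)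
      (fun _ => rfl) (fun _ => rfl) rfl rfl (y5 g g.2) hg), MonoidHom.range_eq_top.1
      (O'.gen _ (fun a => ⟨⟨_, y1 a⟩, rfl⟩) ⟨⟨_, y3⟩, rfl⟩ ⟨⟨_, y4⟩, rfl⟩)⟩
  exact ⟨(MulEquiv.ofBijective _ b2).symm.trans (MulEquiv.ofBijective _ b1)⟩

theorem eqns_uq : True := by
  have := @uqD.eq_1.{0, 0, 0}
  trivial

end FS8E
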