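import Mathlib
import Cfsg.Agent.Lib.FS8E.Oc
import Cfsg.Agent.Lib.FS8E.Uq
import Cfsg.Agent.Lib.Oct.Model
import Cfsg.Agent.S1074

/-! A simple group with a coordinatised octagon window is a large Ree group (FS8 end game). -/

set_option autoImplicit false
set_option linter.unusedSectionVars false
set_option linter.unusedSimpArgs false

namespace FS8E

open H78.Oct H78.Oct.Co

section map

variable {K L G : Type*} [Field K] [Tits K] [Field L] [Tits L] [Group G]

/-- Change of the field. -/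
def coMap (f : K ≃+* L) (h : ∀ x, f (σ x) = σ (f x)) : Co K →* Co L := MonoidHom.mk'
  (fun x => ⟨f x.a1, f x.a2, f x.b2, f x.a3, f x.a4, f x.b4, f x.a5, f x.a6, f x.b6, f x.a7, f x.a8, f x.b8⟩)
  fun x y => by
    ext <;> simp only [mul_a1, mul_a2, mul_b2, mul_a3, mul_a4, mul_b4, mul_a5, mul_a6, mul_b6, mul_a7, mul_a8,
      mul_b8, map_add, map_mul, map_pow, h]

theorem coMap_apply (f : K ≃+* L) (h : ∀ x, f (σ x) = σ (f x)) (x : Co K) : coMap f h x =
    ⟨f x.a1, f x.a2, f x.b2, f x.a3, f x.a4, f x.b4, f x.a5, f x.a6, f x.b6, f x.a7, f x.a8, f x.b8⟩ := rfl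

theorem coMap_inj (f : K ≃+* L) (h : ∀ x, f (σ x) = σ (f x)) : Function.Injective (coMap f h) := fun x y e => by
  simp only [coMap_apply, Co.mk.injEq, EmbeddingLike.apply_eq_iff_eq] at e
  ext <;> simp [e]

theorem ex1_map (f : K ≃+* L) {r : K → Co K} {r' : L → Co L} {φ : Co K → Co L} (h : ∀ s, φ (r s) = r' (f s))
    {n : Co L → G} {g : G} : (∃ s, g = n (r' s)) ↔ ∃ s, g = n (φ (r s)) := by
  simp only [h]
  exact f.surjective.exists

theorem ex2_map (f : K ≃+* L) {r : K → K → Co K} {r' : L → L → Co L} {φ : Co K → Co L}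
    (h : ∀ s u, φ (r s u) = r' (f s) (f u)) {n : Co L → G} {g : G} :
    (∃ s u, g = n (r' s u)) ↔ ∃ s u, g = n (φ (r s u)) := by
  simp only [h]
  exact f.surjective.exists.trans (exists_congr fun _ => f.surjective.exists)

/-- Change of the field. -/
def Eg.map (D : Eg L G) (f : K ≃+* L) (h : ∀ x, f (σ x) = σ (f x)) : Eg K G where
  U := D.U
  per := D.per
  nf := D.nf.comp (coMap f h)
  inj := D.inj.comp (coMap_inj f h)
  u1 g := (D.u1 g).trans (ex1_map f fun _ => by ext <;> simp [coMap_apply])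
  u2 g := (D.u2 g).trans (ex2_map f fun _ _ => by ext <;> simp [coMap_apply])
  u3 g := (D.u3 g).trans (ex1_map f fun _ => by ext <;> simp [coMap_apply])
  u4 g := (D.u4 g).trans (ex2_map f fun _ _ => by ext <;> simp [coMap_apply])
  u5 g := (D.u5 g).trans (ex1_map f fun _ => by ext <;> simp [coMap_apply])
  u6 g := (D.u6 g).trans (ex2_map f fun _ _ => by ext <;> simp [coMap_apply])
  u7 g := (D.u7 g).trans (ex1_map f fun _ => by ext <;> simp [coMap_apply])
  u8 g := (D.u8 g).trans (ex2_map f fun _ _ => by ext <;> simp [coMap_apply])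
  c9 := D.c9
  c0 := D.c0
  mu1 := D.mu1
  mu8 := D.mu8
  opp a e := coMap_inj f h ((D.opp _ e).trans (map_one _).symm)
  gen := D.gen
  cen := D.cen

end map

theorem zmod2 : ∀ y : ZMod 2, y = 0 ∨ y = 1 := by decide

theorem tits_card {K : Type*} [Field K] [Fintype K] (t : Tits K) :
    ∃ m, Fintype.card K = 2 ^ (2 * m + 1) ∧ ∀ x : K, t.s x = x ^ 2 ^ (m + 1) := by
  haveI : Fact (Nat.Prime 2) := ⟨Nat.prime_two⟩
  letI := ZMod.algebra K 2
  obtain ⟨n, -, hn⟩ := FiniteField.card K 2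
  have hc : Fintype.card (ZMod 2) = 2 := ZMod.card 2
  have hf : Module.finrank (ZMod 2) K = n := by
    have := Module.card_eq_pow_finrank (K := ZMod 2) (V := K)
    rw [hn, hc] at this
    exact (Nat.pow_right_injective le_rfl this).symm
  let φ := FiniteField.frobeniusAlgEquivOfAlgebraic (ZMod 2) K
  have ho : orderOf φ = n := (FiniteField.orderOf_frobeniusAlgEquivOfAlgebraic (ZMod 2) K).trans hf
  have hp : ∀ (j : ℕ) (x : K), (φ ^ j) x = x ^ 2 ^ j := fun j x => by
    rw [AlgEquiv.coe_pow, FiniteField.coe_frobeniusAlgEquivOfAlgebraic_iterate, hc]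
  let s : K ≃ₐ[ZMod 2] K := AlgEquiv.ofRingEquiv (f := t.s) fun x => by
    obtain rfl | rfl : x = 0 ∨ x = 1 := zmod2 x
    all_goals simp
  obtain ⟨j, hj⟩ := (FiniteField.bijective_frobeniusAlgEquivOfAlgebraic_pow (ZMod 2) K).2 s
  have hj' : φ ^ (j : ℕ) = s := hj
  have h2 : φ ^ (2 * (j : ℕ)) = φ ^ 1 := by
    rw [two_mul, pow_add, hj']
    ext x
    rw [hp, pow_one]
    exact t.sq x
  rw [pow_eq_pow_iff_modEq, ho] at h2
  have hodd : Odd (n : ℕ) := by
    by_contra e
    have := h2.of_dvd (even_iff_two_dvd.1 (Nat.not_odd_iff_even.1 e))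
    simp [Nat.ModEq] at this
  obtain ⟨m, hm⟩ := hodd
  refine ⟨m, by rw [hn, hm], fun x => ?_⟩
  rw [← hp, show φ ^ (m + 1) = s from ?_]
  · rfl
  rw [← hj', pow_eq_pow_iff_modEq, ho]
  refine Nat.ModEq.cancel_left_of_coprime (c := 2) (by rw [hm]; simp) (Nat.ModEq.trans ?_ h2.symm)
  rw [hm]
  exact (Nat.modEq_iff_dvd' (by omega)).2 ⟨1, by omega⟩ |>.symm

theorem tits_uniq {K : Type*} [Field K] [Fintype K] (t t' : Tits K) : t = t' := by
  obtain ⟨m, h1, h2⟩ := tits_card t
  obtain ⟨m', h1', h2'⟩ := tits_card t'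
  obtain rfl : m = m' := by
    have := Nat.pow_right_injective le_rfl (h1.symm.trans h1')
    omega
  obtain ⟨s, _⟩ := t
  obtain ⟨s', _⟩ := t'
  congr
  exact RingEquiv.ext fun x => (h2 x).trans (h2' x).symm

theorem Eg.iso {K : Type} {G : Type*} [Field K] [t : Tits K] [Finite K] [Group G] [Finite G] [IsSimpleGroup G]
    (D : Eg K G) : Cfsg.Lie.Iso2F4 G := by
  have := Fintype.ofFinite K
  obtain ⟨m, hm, hs⟩ := tits_card t
  rcases Nat.eq_zero_or_pos m with rfl | h1
  · haveI : Fact (Nat.Prime 2) := ⟨Nat.prime_two⟩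
    obtain ⟨t', ⟨O⟩⟩ := exists_oct (K := ZMod 2) 0 (by simp)
    have f : ZMod 2 ≃+* K := FiniteField.ringEquivOfCardEq (by simp [hm])
    obtain ⟨m', hm', hs'⟩ := tits_card t'
    obtain rfl : m' = 0 := by
      have := Nat.pow_right_injective le_rfl (hm'.symm.trans (show _ = 2 ^ 1 by simp))
      omega
    obtain ⟨O'⟩ := (D.map f fun x => by rw [show σ x = _ from hs' x, show σ (f x) = _ from hs _, map_pow]).oct
    obtain ⟨e⟩ := oct_equiv O O'
    haveI := e.symm.isSimpleGroup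
    obtain ⟨a, -, -, c⟩ := Cfsg.Agent.S1074.result
    rcases (inferInstance : (commutator (Cfsg.Lie.twistedF4 (ZMod 2) 1)).Normal).eq_bot_or_eq_top with h | h
    · rw [Cfsg.Lie.TitsGroup, h] at c
      simp at c
    · simp [h] at a
  · obtain ⟨t', ⟨O⟩⟩ := exists_oct m hm
    obtain rfl := tits_uniq t t'
    obtain ⟨O'⟩ := D.oct
    exact ⟨K, _, _, m, h1, hm, oct_equiv O O'⟩

theorem eqns_fin : True := by
  have := @coMap.eq_1.{0, 0}
  have := @Eg.map.eq_1.{0, 0, 0}
  trivial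

end FS8E
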