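import Mathlib
import Cfsg.Agent.Lib.FS.Defs
import Cfsg.Agent.Lib.Stein.SLaced
import Cfsg.Agent.Lib.FS8.Bas
import Cfsg.Agent.Lib.FS8E.Fin

/-! From the root group datum of an octagon to the window, and from coordinates to the group. -/

set_option autoImplicit false

namespace FS8E.B2

open H78.Oct H78.Oct.Co H63.St FS8
open scoped commutatorElement

theorem U_le_I {G : Type*} [Group G] {W : W8 G} {i j k : ℤ} (h1 : i ≤ k) (h2 : k ≤ j) :
    W.U k ≤ W.I i j := fun _ h => W8.mem_I h1 h2 h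

theorem mI {G : Type*} [Group G] {W : W8 G} {i j k : ℤ} {x : G} (hx : x ∈ W.U k)
    (h1 : i ≤ k := by omega) (h2 : k ≤ j := by omega) : x ∈ W.I i j := W8.mem_I h1 h2 hx

section br

variable {hn : FS.Ok 8} {G : Type*} [Group G]

theorem itv_val : ∀ r k : ZMod (2 * 8), ∀ d : Fin 8, d ≠ 0 → r ≠ r + (d : ℕ) ∧
    r + (d : ℕ) ≠ (FS.Dih hn).neg r ∧ (k ∈ (FS.Dih hn).Itv r (r + (d : ℕ)) →
      0 < (k - r).val ∧ (k - r).val < d) := by
  obtain rfl : hn = .inr (.inr (.inr rfl)) := rfl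
  decide +kernel

theorem sep_w (r : ZMod (2 * 8)) : ∃ w ∈ (FS.Dih hn).W, ∀ m : Fin 16,
    (FS.Dih hn).Pos (w (r + (m : ℕ))) ↔ (m : ℕ) < 8 := by
  have c : ∀ r : ZMod (2 * 8), ∃ j : Fin 8,
      (∀ m : Fin 16, (FS.Dih hn).Pos (r + (m : ℕ) + 2 * (j : ℕ)) ↔ (m : ℕ) < 8) ∨
      ∀ m : Fin 16, (FS.Dih hn).Pos ((8 : ℕ) - (r + (m : ℕ)) + 2 * (j : ℕ)) ↔ (m : ℕ) < 8 := by
    obtain rfl : hn = .inr (.inr (.inr rfl)) := rfl
    decide +kernel
  obtain ⟨j, h | h⟩ := c r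
  · exact ⟨_, FS.rot_mem hn j, fun m => by rw [FS.rot_pow]; exact h m⟩
  · exact ⟨_, mul_mem (FS.rot_mem hn j) ((FS.Dih hn).σ_mem_W 1), fun m => by
      rw [Equiv.Perm.mul_apply, FS.rot_pow, FS.σ1]; exact h m⟩

theorem cast_eq (i k : ℤ) {n : ℕ} (h1 : i ≤ k) (h2 : k < i + n) :
    ∃ m : Fin n, k = i + (m : ℕ) ∧ (k : ZMod (2 * 8)) = (i : ZMod (2 * 8)) + (m : ℕ) := by
  obtain ⟨m, rfl⟩ := Int.le.dest h1
  exact ⟨⟨m, by omega⟩, rfl, by simp⟩

/-- The window of a root group datum. -/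
def toW8 (E : RGD (FS.Dih hn) G) (hE : E.Faith) : W8 G where
  U i := E.X (i : ZMod (2 * 8))
  per i := by
    congr 1
    push_cast
    exact add_zero _
  comm' i j h1 h2 x hx y hy := by
    have := FS.fin hn
    obtain ⟨d, rfl, e⟩ := cast_eq i j (n := 8) h1.le h2
    have hd : d ≠ 0 := by rintro rfl; simp at h1
    rw [e] at hy
    refine (XS_le.2 fun k hk => ?_) 
      (E.comm_mem' (itv_val (hn := hn) i 0 d hd).1 (itv_val i 0 d hd).2.1 hx hy)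
    obtain ⟨a, b⟩ := (itv_val i k d hd).2.2 hk
    refine le_iSup₂_of_le (i + ((k - i).val : ℕ)) ⟨by omega, by omega⟩ (le_of_eq ?_)
    congr 1
    simp
  ind' i := by
    obtain ⟨w, hw, h⟩ := sep_w (hn := hn) i
    obtain ⟨g, hg⟩ := E.exists_acts hw
    refine Subgroup.disjoint_def.2 fun {x} h1 h2 => ?_
    have k1 : (⨆ k ∈ Set.Icc i (i + 7), E.X (k : ZMod (2 * 8))) ≤
        E.U.comap (MulAut.conj g).toMonoidHom := iSup₂_le fun k hk y hy => by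
      obtain ⟨m, rfl, e⟩ := cast_eq i k (n := 16) hk.1 (by have := hk.2; omega)
      rw [e] at hy
      exact E.mem_U ((h m).2 (by have := hk.2; omega)) (hg.conj_mem hy)
    have k2 : (⨆ k ∈ Set.Icc (i + 8) (i + 15), E.X (k : ZMod (2 * 8))) ≤
        E.V.comap (MulAut.conj g).toMonoidHom := iSup₂_le fun k hk y hy => by
      obtain ⟨m, rfl, e⟩ := cast_eq i k (n := 16) (by have := hk.1; omega) (by have := hk.2; omega)
      rw [e] at hy
      exact E.mem_V (fun e => by have := (h m).1 e; have := hk.1; omega) (hg.conj_mem hy)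
    simpa using hE _ (k1 h1) (k2 h2)
  ne i := by
    have := FS.fin hn
    obtain ⟨w, hw, l, e⟩ := (FS.Dih hn).exists_W_α (i : ZMod (2 * 8))
    obtain ⟨g, hg⟩ := E.exists_acts hw
    obtain ⟨x, hx, h1⟩ := E.exists_ne_one l
    exact ⟨g * x * g⁻¹, e ▸ hg.conj_mem hx, by simpa using h1⟩
  mu' i x hx h1 := by
    have := FS.fin hn
    obtain ⟨u, hu, u', hu', a⟩ := E.rgd2' hx h1
    have e : (FS.Dih hn).neg (i : ZMod (2 * 8)) = ((i + 8 : ℤ) : ZMod (2 * 8)) := by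
      rw [FS.neg_eq]; simp
    rw [e] at hu hu'
    refine ⟨u, hu, u', hu', fun j y => (a _ _).trans (iff_of_eq ?_)⟩
    congr 2
    simp [FS.Dih]

theorem toW8_I (E : RGD (FS.Dih hn) G) (hE : E.Faith) : (toW8 E hE).I 1 8 = E.U := by
  refine le_antisymm (W8.I_le fun k h1 h2 x hx => E.mem_U (r := (k : ZMod (2 * 8))) ?_ hx)
    (XS_le.2 fun r hr => ?_)
  · have c : ∀ m : Fin 8, 1 ≤ (((1 : ℤ) : ZMod (2 * 8)) + (m : ℕ)).val ∧
        (((1 : ℤ) : ZMod (2 * 8)) + (m : ℕ)).val ≤ 8 := by decide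
    obtain ⟨m, -, e⟩ := cast_eq 1 k (n := 8) h1 (by omega)
    rw [e]
    exact c m
  · have h : 1 ≤ r.val ∧ r.val ≤ 8 := hr
    have := U_le_I (W := toW8 E hE) (k := (r.val : ℕ)) (i := 1) (j := 8) (by omega) (by omega)
    simpa [toW8] using this

theorem toW8_cen [Finite G] {p : ℕ} [Fact p.Prime] (E : RGD (FS.Dih hn) G) (hE : E.Faith)
    (hp : ∀ r, IsPGroup p (E.X r)) : (toW8 E hE).Cen := by
  have := FS.fin hn
  have h := E.isPGroup_U fun i => hp _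
  rw [← toW8_I E hE] at h
  obtain ⟨x, hx, h1⟩ := (toW8 E hE).ne 1
  have : Nontrivial ((toW8 E hE).I 1 8) := ⟨⟨x, mI hx⟩, 1, fun e => h1 (congrArg Subtype.val e)⟩
  have := h.center_nontrivial
  obtain ⟨⟨⟨z, hz⟩, hc⟩, h2⟩ := exists_ne (1 : Subgroup.center ((toW8 E hE).I 1 8))
  exact ⟨z, hz, fun e => h2 (Subtype.ext (Subtype.ext e)), fun k a b u hu =>
    (congrArg Subtype.val (Subgroup.mem_center_iff.1 hc ⟨u, mI hu⟩)).symm⟩

theorem toW8_gen (E : RGD (FS.Dih hn) G) (hE : E.Faith) (ht : E.Gp = ⊤) (H : Subgroup G)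
    (h : ∀ k, (toW8 E hE).U k ≤ H) : H = ⊤ := by
  refine top_le_iff.1 (ht ▸ XS_le.2 fun r _ => ?_)
  simpa [toW8] using h (r.val : ℕ)

end br

theorem iso_of_rng {K : Type} {G : Type*} [Field K] [Tits K] [Finite K] [Group G] [Finite G]
    [IsSimpleGroup G] (W : W8 G) {nf : Co K →* G} (h : Rng W.U nf)
    (hg : ∀ H : Subgroup G, (∀ k, W.U k ≤ H) → H = ⊤) : Cfsg.Lie.Iso2F4 G := by
  have m1 : ∀ s, nf (x1 s) ∈ W.U 1 := fun s => (h.r1 _).2 ⟨s, rfl⟩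
  have m7 : ∀ s, nf (x7 s) ∈ W.U 7 := fun s => (h.r7 _).2 ⟨s, rfl⟩
  refine Eg.iso (K := K) ⟨W.U, W.per, nf, h.inj, h.r1, h.r2, h.r3, h.r4, h.r5, h.r6, h.r7, h.r8,
    fun u hu j a b y hy H hH => ?_, fun u hu j a b y hy H hH => ?_, fun x hx h1 => ?_,
    fun x hx h1 => ?_, fun a ha => ?_, hg, fun g e => ?_⟩
  · exact W8.I_le (fun k c d => hH k (by omega) (by omega)) (by
      rw [← commutatorElement_inv, inv_mem_iff]; exact W.comm (by omega) (by omega) hy hu : _ ∈ W.I (j + 1) (9 - 1))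
  · exact W8.I_le (fun k c d => hH k (by omega) (by omega)) (W.comm (by omega) (by omega) hu hy)
  · obtain ⟨k, l, M⟩ := W.exists_Mu hx h1
    exact ⟨k, M.k_mem, l, M.l_mem, M.ref⟩
  · obtain ⟨k, l, M⟩ := W.exists_Mu hx h1
    exact ⟨k, W8.U_per (W := W) 0 rfl ▸ M.k_mem, l, W8.U_per (W := W) 0 rfl ▸ M.l_mem,
      ((W.Ref_per _ 8).1 M.ref :)⟩
  · refine h.inj (Eq.trans ?_ (map_one nf).symm)
    refine W8.disj (W := W) (i := 1) (j := 8) (k := 9) (l := 16) (by omega) (by omega) (by omega) ?_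
      (ha _ fun k c d => U_le_I c d)
    rw [eq_prod a]
    simp only [map_mul]
    exact mul_mem (mul_mem (mul_mem (mul_mem (mul_mem (mul_mem (mul_mem (mI (m1 _))
      (mI ((h.r2 _).2 ⟨_, _, rfl⟩))) (mI ((h.r3 _).2 ⟨_, rfl⟩))) (mI ((h.r4 _).2 ⟨_, _, rfl⟩)))
      (mI ((h.r5 _).2 ⟨_, rfl⟩))) (mI ((h.r6 _).2 ⟨_, _, rfl⟩))) (mI (m7 _)))
      (mI ((h.r8 _).2 ⟨_, _, rfl⟩))
  · rcases (inferInstance : (Subgroup.center G).Normal).eq_bot_or_eq_top with c | c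
    · exact (Subgroup.mem_bot.1 (c ▸ Subgroup.mem_center_iff.2 e :))
    · have k := Subgroup.mem_center_iff.1 (c ▸ Subgroup.mem_top (nf (x1 1))) (nf (x7 1))
      rw [← map_mul, ← map_mul] at k
      simpa using congrArg Co.a3 (h.inj k)

theorem iso_of_main {G : Type*} [Group G] [Finite G] [IsSimpleGroup G] (W : W8 G)
    (hg : ∀ H : Subgroup G, (∀ k, W.U k ≤ H) → H = ⊤)
    (h : ∃ (K : Type) (_ : Field K) (_ : Fintype K) (_ : Tits K) (nf : Co K →* G),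
      Rng W.U nf ∨ Rng (fun i => W.U (9 - i)) nf) : Cfsg.Lie.Iso2F4 G := by
  obtain ⟨K, _, _, _, nf, h | h⟩ := h
  · exact iso_of_rng W h hg
  · exact iso_of_rng (W.rf 9) h fun H e => hg H fun k => by simpa using e (9 - k)

theorem eqns_br : True := by
  have := @toW8.eq_1.{0}
  trivial

end FS8E.B2
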